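/-
The classes of elements of order three of `Ω₈⁺(3)` and of the stabiliser `Ω₇(3)` of a non-singular
vector: exhaustion.
-/
import Cfsg.Agent.O8.DatB
import Cfsg.Agent.O8.DatD

set_option autoImplicit false

namespace Cfsg.Agent.O8

open Cfsg.Agent.M24 Cfsg.Agent.Cl.Orth

theorem vec_mem_Sv {l : List ℕ} {c : ℕ} (h : c ∈ l) : vec c ∈ Sv l := by
  induction l with
  | nil => simp at h
  | cons d l ih =>
    rcases List.mem_cons.1 h with rfl | h
    · exact Or.inl rfl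
    · exact Or.inr (ih h)

theorem vec_pow (a : I8) : vec (3 ^ ix a) = Pi.single a 1 := by
  funext b; revert a b; decide

theorem B_vec_pow (a : I8) (x : I8 → ZMod 3) : B Q8 (vec (3 ^ ix a)) x = x a.swap := by
  rw [vec_pow, B8_apply, Fin.sum_univ_four]
  rcases a with a | a <;> fin_cases a <;> simp

theorem coord_zero {S : List ℕ} {v : I8 → ZMod 3} (hv : v ∈ Pp Q8 (Sv S)) {a : I8} (h : 3 ^ ix a.swap ∈ S) :
    v a = 0 := by
  have := mem_Pp_Sv.1 hv _ h
  rwa [B_vec_pow, Sum.swap_swap] at this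

theorem span_D {S bs : List ℕ} (h : ∀ a : I8, 3 ^ ix a.swap ∈ S ∨ 3 ^ ix a ∈ bs) :
    ∀ v ∈ Pp Q8 (Sv S), v ∈ Submodule.span (ZMod 3) (Sv bs) := by
  intro v hv
  rw [pi_eq_sum_univ' v]
  refine Submodule.sum_mem _ fun a _ => ?_
  rcases h a with h | h
  · rw [coord_zero hv h, zero_smul]; exact zero_mem _
  · rw [← vec_pow]; exact Submodule.smul_mem _ _ (Submodule.subset_span (vec_mem_Sv h))

theorem vec_w0 : vec 4401 = vec (3 ^ ix (.inl 3)) - vec (3 ^ ix (.inr 3)) := by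
  funext b; revert b; decide

theorem vec_w1 : vec 2214 = vec (3 ^ ix (.inl 3)) + vec (3 ^ ix (.inr 3)) := by
  funext b; revert b; decide

theorem coord_w {S : List ℕ} {v : I8 → ZMod 3} (hv : v ∈ Pp Q8 (Sv S)) (h : 4401 ∈ S) :
    v (.inr 3) = v (.inl 3) := by
  have := mem_Pp_Sv.1 hv _ h
  rw [vec_w0, map_sub, LinearMap.sub_apply, B_vec_pow, B_vec_pow] at this
  exact sub_eq_zero.1 this

theorem span_B {S bs : List ℕ} (h0 : 4401 ∈ S) (h1 : 2214 ∈ bs)
    (h : ∀ a : I8, a ≠ .inl 3 → a ≠ .inr 3 → 3 ^ ix a.swap ∈ S ∨ 3 ^ ix a ∈ bs) :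
    ∀ v ∈ Pp Q8 (Sv S), v ∈ Submodule.span (ZMod 3) (Sv bs) := by
  intro v hv
  have e : v = ∑ a ∈ (Finset.univ.erase (.inl 3)).erase (.inr 3), v a • Pi.single a 1 + v (.inl 3) • vec 2214 := by
    conv_lhs => rw [pi_eq_sum_univ' v, ← Finset.sum_erase_add _ _ (Finset.mem_univ (Sum.inl 3)),
      ← Finset.sum_erase_add _ _ (a := Sum.inr 3) (by simp)]
    rw [vec_w1, vec_pow, vec_pow, coord_w hv h0, smul_add, add_assoc, add_comm (v _ • Pi.single (Sum.inr 3) 1)]
  rw [e]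
  refine add_mem (Submodule.sum_mem _ fun a ha => ?_)
    (Submodule.smul_mem _ _ (Submodule.subset_span (vec_mem_Sv h1)))
  simp only [Finset.mem_erase] at ha
  rcases h a ha.2.1 ha.1 with h | h
  · rw [coord_zero hv h, zero_smul]; exact zero_mem _
  · rw [← vec_pow]; exact Submodule.smul_mem _ _ (Submodule.subset_span (vec_mem_Sv h))

theorem eq_one_of_basis {g : OG Q8} (h : ∀ a : I8, g.1 (vec (3 ^ ix a)) = vec (3 ^ ix a)) : g = 1 :=
  mat_injective <| by
    ext p a; rw [adjD4.mat_apply, adjD4.mat_apply, ← vec_pow, h, OG.one_apply]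

theorem nd_nil : ND Q8 (Sv []) := fun x _ h0 => by
  obtain ⟨y, hy⟩ := adjD4_bnondeg.exists_B_ne h0
  exact ⟨y, fun _ h => h.elim, by rwa [B_comm]⟩

theorem cls_of_eq_one {K : Subgroup (OG Q8)} {S : List ℕ} (h : ∀ g ∈ Fx Q8 (Sv S), g ^ 3 = 1 → g = 1) :
    Cls K S [ONE] := fun g hg h3 => ⟨1, one_mem _, by simp [h g hg h3, cd_one]⟩

theorem cls8 : Cls (EG Q8) [] lD0 := by
  have n1 : ND Q8 (Sv [1, 81]) := nd_cons nd_nil (by decide)
  have n2 : ND Q8 (Sv [3, 243, 1, 81]) := nd_cons n1 (by decide)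
  have n3 : ND Q8 (Sv [9, 729, 3, 243, 1, 81]) := nd_cons n2 (by decide)
  have c3 : Cls (EG Q8) [9, 729, 3, 243, 1, 81] [ONE] := cls_of_eq_one fun g hg h =>
    base_plane (e := vec 27) (f := vec 2187) rfl n3 (hyp_vec rfl rfl rfl) (vec_mem_Pp (by decide))
      (vec_mem_Pp (by decide))
      (fun v hv => funext fun a => coord_zero (S := [27, 2187, 9, 729, 3, 243, 1, 81]) hv (by revert a; decide))
      (fun y hy => eq_one_of_basis fun a =>
        hy _ (vec_mem_Sv (l := [27, 2187, 9, 729, 3, 243, 1, 81]) (by revert a; decide))) hg h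
  have c2 := level (fun _ _ _ _ => Ei_mem_EG _ _) n2 chkLD2 chkTD2 (span_D (by decide)) chkD2 c3
  have c1 := level (fun _ _ _ _ => Ei_mem_EG _ _) n1 chkLD1 chkTD1 (span_D (by decide)) chkD1 c2
  exact level (fun _ _ _ _ => Ei_mem_EG _ _) nd_nil chkLD0 chkTD0 (span_D (by decide)) chkD0 c1

theorem nd_w0 : ND Q8 (Sv [4401]) := by
  intro x hx h0
  obtain ⟨y, -, hy⟩ := nd_nil x (fun _ h => h.elim) h0
  have h1 := mem_Pp_Sv.1 hx _ List.mem_cons_self
  have h2 : B Q8 (vec 4401) (vec 4401) = 1 := by rw [B_vec]; decide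
  refine ⟨y - B Q8 (vec 4401) y • vec 4401, mem_Pp_Sv.2 ?_, ?_⟩
  · simp [h2]
  · rw [B_comm] at h1
    simpa [h1] using hy

theorem cls7 {K : Subgroup (OG Q8)} (hK : ∀ u ∈ Pp Q8 (Sv [4401]), ∀ v ∈ Pp Q8 (Sv [4401]), Ei Q8 u v ∈ K) :
    Cls K [4401] lB0 := by
  have n1 : ND Q8 (Sv [1, 81, 4401]) := nd_cons nd_w0 (by decide)
  have n2 : ND Q8 (Sv [3, 243, 1, 81, 4401]) := nd_cons n1 (by decide)
  have hK' : ∀ {S : List ℕ}, 4401 ∈ S → ∀ u ∈ Pp Q8 (Sv S), ∀ v ∈ Pp Q8 (Sv S), Ei Q8 u v ∈ K :=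
    fun h u hu v hv => hK _ (mem_Pp_Sv.2 (by simpa using mem_Pp_Sv.1 hu _ h)) _
      (mem_Pp_Sv.2 (by simpa using mem_Pp_Sv.1 hv _ h))
  have c3 : Cls K [9, 729, 3, 243, 1, 81, 4401] [ONE] := cls_of_eq_one fun g hg h => by
    rcases fix_sing rfl hg h with h1 | ⟨u, hu, h0, hq, -⟩
    · have e1 := h1 (vec 2214) (vec_mem_Pp (by decide))
      have e2 := hg (vec 4401) (vec_mem_Sv (by decide))
      refine eq_one_of_basis fun a => ?_
      by_cases ha : a = .inl 3
      · have : vec (3 ^ ix a) = -(vec 2214 + vec 4401) := by subst ha; funext b; revert b; decide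
        rw [this, map_neg, map_add, e1, e2]
      by_cases hb : a = .inr 3
      · have : vec (3 ^ ix a) = vec 4401 - vec 2214 := by subst hb; funext b; revert b; decide
        rw [this, map_sub, e1, e2]
      exact hg _ (vec_mem_Sv (by revert a; decide))
    · obtain ⟨c, rfl⟩ := Submodule.mem_span_singleton.1 (by
        simpa [Sv] using span_B (bs := [2214]) (by decide) (by decide) (by decide) u hu)
      rw [Q_smul, Q_vec, show ((Qn 2214 : ℕ) : ZMod 3) = 1 by decide, mul_one, mul_self_eq_zero] at hq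
      exact absurd (by rw [hq, zero_smul]) h0
  have c2 := level (hK' (by decide)) n2 chkLB2 chkTB2 (span_B (by decide) (by decide) (by decide)) chkB2 c3
  have c1 := level (hK' (by decide)) n1 chkLB1 chkTB1 (span_B (by decide) (by decide) (by decide)) chkB1 c2
  exact level hK nd_w0 chkLB0 chkTB0 (span_B (by decide) (by decide) (by decide)) chkB0 c1

end Cfsg.Agent.O8
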