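/-
The thirteen classes of elements of order three of the Chevalley group `D₄(3)`.
-/
import Cfsg.Agent.O8.Lev
import Cfsg.Agent.O8.DatA
import Cfsg.Agent.Chev.TwD4

set_option autoImplicit false

namespace Cfsg.Agent.O8

open Cfsg.Agent.M24 Cfsg.Agent.Cl.Orth Cfsg.Lie
open Cfsg.Agent.Chev (dgt pck mD4 linkD4 PD4 YD4 twD4 twD4_y')

/-- the Chevalley group `D₄(3)` -/
abbrev L8 : Type := (mD4 (ZMod 3)).GG linkD4

theorem map_EG : (EG Q8).map (goodD4.ad (ZMod 3)) = ((mD4 (ZMod 3)).adj linkD4).G0 :=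
  adjD4_map_EG.trans ((mD4 (ZMod 3)).group_eq linkD4)

/-- the adjoint action -/
noncomputable def adL : EG Q8 →* L8 :=
  ((goodD4.ad (ZMod 3)).comp (EG Q8).subtype).codRestrict _ fun g => map_EG ▸ Subgroup.mem_map_of_mem _ g.2

theorem adL_surjective : Function.Surjective adL := fun x => by
  obtain ⟨g, hg, e⟩ : x.1 ∈ (EG Q8).map (goodD4.ad (ZMod 3)) := map_EG.ge x.2
  exact ⟨⟨g, hg⟩, Subtype.ext e⟩

theorem adL_eq_one {g : EG Q8} (h : adL g = 1) : g.1 = 1 ∨ g.1 = negO Q8 := by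
  rw [← (adjD4_hyp 0).mem_center_iff adjD4_bnondeg (by simp), goodD4.ker_eq_center adjD4_bnondeg.rad0
    (by simp) (adjD4_hyp 0) (adjD4_hyp 1) (adjD4_orth _ _ (by decide +kernel))
    (adjD4_orth _ _ (by decide +kernel)) adjD4_perfect _ chevD4_x_ne_one]
  exact congrArg Subtype.val h

theorem negO_comm (g : OG Q8) : g * negO Q8 = negO Q8 * g :=
  OG.ext' fun v => by simp [negO_apply]

theorem negO_sq : negO Q8 * negO Q8 = 1 := OG.ext' fun v => by simp [negO_apply]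

theorem cd_negO : cd (negO Q8) = NEG := by
  have h : isRed NEG = true := by decide +kernel
  rw [← code_dec h, cd]
  congr 1
  ext p a
  have key : ∀ p a : I8, (-(if p = a then 1 else 0) : ZMod 3) = dec NEG p a + 0 := by decide +kernel
  rw [adjD4.mat_apply, negO_apply, Pi.neg_apply, Pi.single_apply]
  exact (key p a).trans (add_zero _)

theorem adL_eq {a b : EG Q8} (h : adL a = adL b) : cd a = cd b ∨ cd a = mul3 NEG (cd b) := by
  have : adL (a * b⁻¹) = 1 := by rw [map_mul, map_inv, h, mul_inv_cancel]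
  rcases adL_eq_one this with h1 | h1
  · left; congr 1; exact mul_inv_eq_one.1 h1
  · right; rw [← cd_negO, ← cd_mul]; congr 1; exact mul_inv_eq_iff_eq_mul.1 h1

theorem adL_eq_cube {a b : EG Q8} (h : adL a = adL b) (ha : a ^ 3 = 1) (hb : b ^ 3 = 1) : a = b := by
  have : adL (a * b⁻¹) = 1 := by rw [map_mul, map_inv, h, mul_inv_cancel]
  rcases adL_eq_one this with h1 | h1
  · exact Subtype.ext (mul_inv_eq_one.1 h1)
  · exfalso
    have h2 : (a : OG Q8) = negO Q8 * b := mul_inv_eq_iff_eq_mul.1 h1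
    have h3 : (a : OG Q8) ^ 3 = 1 := by exact_mod_cast congrArg Subtype.val ha
    have h4 : (b : OG Q8) ^ 3 = 1 := by exact_mod_cast congrArg Subtype.val hb
    rw [h2, (show Commute (negO Q8) b from (negO_comm b).symm).mul_pow, h4, mul_one, pow_three, negO_sq,
      mul_one] at h3
    have := cd_negO
    rw [h3, cd_one] at this
    exact absurd this (by decide +kernel)

theorem exists_lift {x : L8} (h : x ^ 3 = 1) : ∃ a : EG Q8, adL a = x ∧ a ^ 3 = 1 := by
  obtain ⟨a, rfl⟩ := adL_surjective x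
  refine ⟨a ^ 4, by rw [map_pow, pow_succ, h, one_mul], ?_⟩
  rw [← pow_mul, show 4 * 3 = 3 * 2 * 2 by rfl, pow_mul, pow_mul]
  rw [← map_pow] at h
  have : (a ^ 3) ^ 2 = 1 := Subtype.ext <| by
    rcases adL_eq_one h with h1 | h1
    · rw [Subgroup.coe_pow, h1, one_pow]; rfl
    · rw [Subgroup.coe_pow, h1, pow_two, negO_sq]; rfl
  rw [this, one_pow]

/-- the simple roots and their negatives -/
def sr (k : ℕ) : ℕ := [18, 14, 13, 12, 5, 9, 10, 11].getD (k % 8) 0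

/-- the parameter of a letter -/
def st (k : ℕ) : ZMod 3 := (1 + k / 8 % 2 : ℕ)

/-- the letters in the Chevalley group -/
noncomputable def sx (k : ℕ) : L8 := (YD4 (ZMod 3)).y (sr k) (st k)

/-- the letters in the orthogonal group -/
noncomputable def sy (k : ℕ) : EG Q8 :=
  ⟨Ei Q8 (vec (slt.getD (k % 16) 0 / 6561)) (vec (slt.getD (k % 16) 0 % 6561)), Ei_mem_EG _ _⟩

theorem adL_y (r : Fin chevD4.nroots) (t : ZMod 3) (h : goodD4.y r t ∈ EG Q8) :
    adL ⟨goodD4.y r t, h⟩ = (YD4 (ZMod 3)).y r t := by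
  refine (mD4 (ZMod 3)).inc_injective linkD4 (Units.ext ?_)
  rw [(mD4 (ZMod 3)).coe_inc_y]
  refine (goodD4.adM_y r t).trans ?_
  simp [ChevalleyDatum.x]

theorem sr_lt (k : ℕ) : sr k < 24 := by
  have : ∀ j < 8, [18, 14, 13, 12, 5, 9, 10, 11].getD j 0 < 24 := by decide
  exact this _ (Nat.mod_lt _ (by decide))

theorem adL_sy (k : ℕ) : adL (sy k) = sx k := by
  have key : ∀ j < 16, ∀ a, vec (slt.getD j 0 / 6561) a = Pi.single (M := fun _ => ZMod 3)
      (adjD4.u ⟨sr j, sr_lt j⟩) 1 a ∧ vec (slt.getD j 0 % 6561) a = (((adjD4.ε ⟨sr j, sr_lt j⟩ : ℤ) * st j) •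
        (Pi.single (adjD4.v ⟨sr j, sr_lt j⟩) 1 : I8 → ZMod 3)) a := by decide +kernel
  have h1 : sr (k % 16) = sr k := by simp only [sr, Nat.mod_mod_of_dvd k (show 8 ∣ 16 by decide)]
  have h2 : st (k % 16) = st k := by simp only [st]; congr 2; omega
  rw [sx, ← h1, ← h2, ← adL_y ⟨_, sr_lt _⟩ _ (eich_mem_EG _ _)]
  have := key _ (Nat.mod_lt k (by decide))
  congr 1
  refine Subtype.ext ?_
  show Ei Q8 _ _ = _
  rw [funext fun a => (this a).1, funext fun a => (this a).2]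
  exact Ei_eq (goodD4.hu _) (goodD4.hv _ _)

theorem cd_sy (k : ℕ) : cd (sy k) = dgt 1024 tcS (k % 16) := by
  have key : ∀ j < 16, Qn (slt.getD j 0 / 6561) = 0 ∧ Bn (slt.getD j 0 / 6561) (slt.getD j 0 % 6561) = 0 ∧
      ec (slt.getD j 0 / 6561) (slt.getD j 0 % 6561) = dgt 1024 tcS j := by decide +kernel
  obtain ⟨h1, h2, h3⟩ := key _ (Nat.mod_lt k (by decide))
  rw [← h3, ← cd_Ei h1 h2]; rfl

/-- words in the Chevalley group -/
noncomputable def xw (l : List ℕ) : L8 := (l.map sx).prod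

/-- words in the orthogonal group -/
noncomputable def yw (l : List ℕ) : EG Q8 := (l.map sy).prod

/-- codes of words -/
noncomputable def cw (l : List ℕ) : ℕ :=
  List.rec (motive := fun _ => ℕ) ONE
    (fun k _ ih => force ih fun Y => force (dgt 1024 tcS (Nat.mod k 16)) fun X => mul3 X Y) l

theorem adL_yw (l : List ℕ) : adL (yw l) = xw l := by
  rw [yw, map_list_prod, List.map_map]; congr 2; exact funext adL_sy

theorem cd_yw (l : List ℕ) : cd (yw l) = cw l := by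
  induction l with
  | nil => exact cd_one
  | cons k l ih =>
    have : cw (k :: l) = force (cw l) fun Y => force (dgt 1024 tcS (Nat.mod k 16)) fun X => mul3 X Y := rfl
    rw [this, force_eq, force_eq, ← ih, yw, List.map_cons, List.prod_cons, Subgroup.coe_mul, cd_mul, cd_sy]
    rfl

theorem xw_eq {l l' : List ℕ} (h : Nat.beq (cw l) (cw l') = true) : xw l = xw l' := by
  rw [← adL_yw, ← adL_yw]
  congr 1
  exact Subtype.ext (cd_injective (by rw [cd_yw, cd_yw, Nat.eq_of_beq_eq_true h]))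

theorem xw_ne {l l' : List ℕ} (h : cw l ≠ cw l' ∧ cw l ≠ mul3 NEG (cw l')) : xw l ≠ xw l' := by
  rw [← adL_yw, ← adL_yw]
  intro e
  have := adL_eq e
  rw [cd_yw, cd_yw] at this
  tauto

theorem tD0_ok : ∀ i < 64, WOK (EG Q8) (dgt 1024 tcD0 i) := fun i hi =>
  (chkT_sound chkTD0 (fun _ _ _ _ => Ei_mem_EG _ _) i hi).mono inf_le_left

theorem isConj_of_cjc {a b : EG Q8} {c : ℕ} (h : cjc tcD0 (cd a) (cd b) c = true) : IsConj a b := by
  obtain ⟨k, hk, e⟩ := wd_ok tD0_ok c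
  rw [cjc, force_eq, ← e, Nat.beq_eq, ← cd_mul, ← cd_mul] at h
  exact isConj_iff.2 ⟨⟨k, hk⟩, Subtype.ext (mul_inv_eq_iff_eq_mul.2 (cd_injective h))⟩

/-- the representatives in the orthogonal group -/
noncomputable def ry (i : ℕ) : EG Q8 := yw (wT.getD i [])

/-- the representatives in the Chevalley group -/
noncomputable def rx (i : ℕ) : L8 := xw (wT.getD i [])

theorem adL_ry (i : ℕ) : adL (ry i) = rx i := adL_yw _

theorem cd_ry {i : ℕ} (h : i < 13) : cd (ry i) = lget lD0 0 (i + 1) := by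
  have : ∀ i < 13, cw (wT.getD i []) = lget lD0 0 (i + 1) := by decide +kernel
  rw [ry, cd_yw, this i h]

theorem ry_cube {i : ℕ} (h : i < 13) : ry i ^ 3 = 1 := by
  have : ∀ i < 13, mul3 (lget lD0 0 (i + 1)) (mul3 (lget lD0 0 (i + 1)) (lget lD0 0 (i + 1))) = ONE := by
    decide +kernel
  refine Subtype.ext (cd_injective ?_)
  rw [pow_three, Subgroup.coe_mul, Subgroup.coe_mul, cd_mul, cd_mul, cd_ry h, this i h]
  exact cd_one.symm

theorem rx_cube {i : ℕ} (h : i < 13) : rx i ^ 3 = 1 := by rw [← adL_ry, ← map_pow, ry_cube h, map_one]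

theorem rx_ne_one {i : ℕ} (h : i < 13) : rx i ≠ 1 := by
  have : ∀ i < 13, cw (wT.getD i []) ≠ cw [] ∧ cw (wT.getD i []) ≠ mul3 NEG (cw []) := by decide +kernel
  exact xw_ne (this i h)

theorem ry_inv {i : ℕ} (h : i < 13) : IsConj (ry i)⁻¹ (ry i) := by
  have : ∀ i < 13, cjc tcD0 (mul3 (lget lD0 0 (i + 1)) (lget lD0 0 (i + 1))) (lget lD0 0 (i + 1))
    (lget vT 0 i) = true := by decide +kernel
  have e : (ry i)⁻¹ = ry i * ry i := by
    rw [inv_eq_iff_mul_eq_one, ← pow_three, ry_cube h]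
  refine isConj_of_cjc (c := lget vT 0 i) ?_
  rw [e, Subgroup.coe_mul, cd_mul, cd_ry h, this i h]

theorem rx_inv {i : ℕ} (h : i < 13) : IsConj (rx i)⁻¹ (rx i) := by
  rw [← adL_ry, ← map_inv]; exact adL.map_isConj (ry_inv h)

theorem exists_ry {a : EG Q8} (h : a ^ 3 = 1) (h1 : a ≠ 1) : ∃ i < 13, IsConj a (ry i) := by
  obtain ⟨k, hk, e⟩ := cls8 a (fun _ h => h.elim) (by exact_mod_cast congrArg Subtype.val h)
  have : ∀ X ∈ lD0, X = ONE ∨ ∃ i < 13, X = lget lD0 0 (i + 1) := by decide +kernel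
  rcases this _ e with e | ⟨i, hi, e⟩
  · rw [← cd_one] at e
    exact absurd (Subtype.ext (by simpa using cd_injective e)) h1
  · rw [← cd_ry hi] at e
    exact ⟨i, hi, isConj_iff.2 ⟨⟨k, hk.1⟩, Subtype.ext (cd_injective e)⟩⟩

theorem exists_rx {x : L8} (h : x ^ 3 = 1) (h1 : x ≠ 1) : ∃ i < 13, IsConj x (rx i) := by
  obtain ⟨a, rfl, ha⟩ := exists_lift h
  obtain ⟨i, hi, e⟩ := exists_ry ha fun e => h1 (by rw [e, map_one])
  exact ⟨i, hi, adL_ry i ▸ adL.map_isConj e⟩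

/-- the permutations of the nodes -/
def rhoT (n i : ℕ) : ℕ :=
  ([[0, 1, 2, 3], [0, 1, 3, 2], [2, 1, 0, 3], [2, 1, 3, 0], [3, 1, 0, 2], [3, 1, 2, 0]].getD (n % 6) []).getD i 0

/-- the diagonal-graph maps on the letters -/
def lm (n k : ℕ) : ℕ := rhoT n (k % 4) + 4 * (k / 4 % 2) + 8 * ((k / 8 % 2 + n / 6 / 2 ^ (k % 4)) % 2)

/-- the homomorphism acts on the letters as the map number `n` -/
def IsLM (α : L8 →* L8) (n : ℕ) : Prop := ∀ k, α (sx k) = sx (lm n k)

theorem IsLM.xw {α : L8 →* L8} {n : ℕ} (h : IsLM α n) (l : List ℕ) : α (xw l) = xw (l.map (lm n)) := by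
  rw [O8.xw, map_list_prod, List.map_map, O8.xw, List.map_map]; congr 2; exact funext h

/-- the action on the classes -/
noncomputable def aC (n i : ℕ) : ℕ := dgt 4 (lget aT 0 n) i

theorem aC_lt {n i : ℕ} (hn : n < 96) (hi : i < 13) : aC n i < 13 := by
  have : ∀ n < 96, ∀ i < 13, aC n i < 13 := by decide +kernel
  exact this n hn i hi

theorem chk_lm : (nall 96 fun n => nall 13 fun i => force (cw ((wT.getD i []).map (lm n))) fun X =>
    cjc tcD0 X (lget lD0 0 (aC n i + 1)) (lget (cT.getD n []) 0 i)) = true := by decide +kernel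

theorem IsLM.rx {α : L8 →* L8} {n : ℕ} (h : IsLM α n) (hn : n < 96) {i : ℕ} (hi : i < 13) :
    IsConj (α (rx i)) (rx (aC n i)) := by
  have := (nall_iff _ _).1 ((nall_iff _ _).1 chk_lm n hn) i hi
  rw [force_eq, ← cd_yw, ← cd_ry (aC_lt hn hi)] at this
  rw [O8.rx, h.xw, ← adL_yw, ← adL_ry]
  exact adL.map_isConj (isConj_of_cjc this)

theorem exists_triality : ∃ τ : L8 →* L8, IsLM τ 3 := by
  refine ⟨(twD4 (RingEquiv.refl (ZMod 3))).σ, fun k => ?_⟩
  have key : ∀ j < 16, (sr j < 24 ∧ Chev.rhoD4 (sr j) = sr (lm 3 j) ∧ Chev.gamD4 (sr j) = 1) ∧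
    st (lm 3 j) = st j := by decide +kernel
  have h1 : sr (k % 16) = sr k := by simp only [sr, Nat.mod_mod_of_dvd k (show 8 ∣ 16 by decide)]
  have h2 : st (k % 16) = st k := by simp only [st]; congr 2; omega
  have h3 : lm 3 (k % 16) = lm 3 k := by
    simp only [lm, Nat.mod_mod_of_dvd k (show 4 ∣ 16 by decide)]
    congr 2 <;> omega
  obtain ⟨h4, h5⟩ := key _ (Nat.mod_lt k (by decide))
  rw [h1, h3] at h4
  rw [h2, h3] at h5
  rw [sx, twD4_y' _ h4, sx, h5]; rfl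

/-- the invariant distinguishing the classes -/
def JJ (g : OG Q8) (c : ZMod 3) : Prop :=
  ∃ x, g.1 (g.1 x) + g.1 x + x ≠ 0 ∧ B Q8 (g.1 (g.1 x) + g.1 x + x) x = c

theorem JJ.conj {a b : EG Q8} (h : IsConj a b) {c : ZMod 3} (ha : JJ a c) : JJ b c := by
  obtain ⟨k, rfl⟩ := isConj_iff.1 h
  obtain ⟨x, h1, h2⟩ := ha
  have e : ∀ y, ((k * a * k⁻¹ : EG Q8) : OG Q8).1 (k.1.1 y) = k.1.1 (a.1.1 y) := fun y => by
    simp
  refine ⟨k.1.1 x, ?_, ?_⟩
  · rw [e, e, ← map_add, ← map_add]; exact OG.apply_ne_zero _ h1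
  · rw [e, e, ← map_add, ← map_add, OG.B_apply, h2]

/-- the coefficients of the invariant -/
def jv (i : ℕ) : ZMod 3 × ZMod 3 :=
  [(0, 1), (0, 2), (0, 2), (0, 1), (0, 0), (0, 0), (0, 1), (0, 2), (0, 0), (0, 0), (0, 0), (1, 1), (2, 1)].getD i 0

/-- the value of the invariant -/
def jb (i : ℕ) (c : ZMod 3) : Prop :=
  ∃ s t : ZMod 3, ((jv i).1 * s ≠ 0 ∨ (jv i).2 * t ≠ 0) ∧ (jv i).1 * s * s + (jv i).2 * t * t = c

instance decidable_jb (i : ℕ) (c : ZMod 3) : Decidable (jb i c) := by unfold jb; infer_instance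

theorem JJ_ry {i : ℕ} (h : i < 13) (c : ZMod 3) : JJ (ry i) c ↔ jb i c := by
  have key : ∀ i < 13, ∀ p a, dec (mul3 (lget lD0 0 (i + 1)) (lget lD0 0 (i + 1))) p a +
      dec (lget lD0 0 (i + 1)) p a + (if p = a then 1 else 0) =
      (if p = .inl 0 ∧ a = .inr 0 then (jv i).1 else 0) + (if p = .inl 2 ∧ a = .inr 2 then (jv i).2 else 0) := by
    decide +kernel
  have e : ∀ x, (ry i).1.1 ((ry i).1.1 x) + (ry i).1.1 x + x =
      Pi.single (.inl 0) ((jv i).1 * x (.inr 0)) + Pi.single (.inl 2) ((jv i).2 * x (.inr 2)) := by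
    intro x
    have : adjD4.mat ((ry i).1 * (ry i).1) + adjD4.mat (ry i).1 + 1 =
        Matrix.single (.inl 0) (.inr 0) (jv i).1 + Matrix.single (.inl 2) (.inr 2) (jv i).2 := by
      ext p a
      rw [mat_eq_dec, mat_eq_dec (ry i).1, cd_mul, cd_ry h]
      simp only [Matrix.add_apply, Matrix.one_apply, key i h, Matrix.single_apply, eq_comm]
    have := congrArg (fun M => M.mulVec x) this
    simp only [Matrix.add_mulVec, adjD4.mat_mulVec, Matrix.one_mulVec, OG.mul_apply, Matrix.single_mulVec] at this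
    exact this
  have e1 : ∀ s t : ZMod 3, (Pi.single (.inl 0) s + Pi.single (.inl 2) t : I8 → ZMod 3) ≠ 0 ↔ s ≠ 0 ∨ t ≠ 0 := by
    decide +kernel
  have e2 : ∀ (s t : ZMod 3) (x : I8 → ZMod 3), B Q8 (Pi.single (.inl 0) s + Pi.single (.inl 2) t) x =
      s * x (.inr 0) + t * x (.inr 2) := fun s t x => by
    rw [B8_apply, Fin.sum_univ_four]; simp
  simp only [JJ, e, e1, e2]
  constructor
  · rintro ⟨x, h1, h2⟩
    exact ⟨_, _, h1, h2⟩
  · rintro ⟨s, t, h1, h2⟩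
    exact ⟨Pi.single (.inr 0) s + Pi.single (.inr 2) t, by simpa using h1, by simpa using h2⟩

theorem isConj_lift {a b : EG Q8} (h : IsConj (adL a) (adL b)) (ha : a ^ 3 = 1) (hb : b ^ 3 = 1) :
    IsConj a b := by
  obtain ⟨k, e⟩ := isConj_iff.1 h
  obtain ⟨k, rfl⟩ := adL_surjective k
  exact isConj_iff.2 ⟨k, adL_eq_cube (by simpa using e) (conj_cube ha k) hb⟩

theorem jb_of_isConj {i j : ℕ} (hi : i < 13) (hj : j < 13) (h : IsConj (rx i) (rx j)) (c : ZMod 3) :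
    jb i c ↔ jb j c := by
  rw [← adL_ry, ← adL_ry] at h
  have := isConj_lift h (ry_cube hi) (ry_cube hj)
  rw [← JJ_ry hi, ← JJ_ry hj]
  exact ⟨JJ.conj this, JJ.conj this.symm⟩

theorem rx_inj {i j : ℕ} (hi : i < 13) (hj : j < 13) (h : IsConj (rx i) (rx j)) : i = j := by
  obtain ⟨τ, hτ⟩ := exists_triality
  have step : ∀ {i j}, i < 13 → j < 13 → IsConj (rx i) (rx j) → IsConj (rx (aC 3 i)) (rx (aC 3 j)) :=
    fun hi hj h => (hτ.rx (by decide) hi).symm.trans ((τ.map_isConj h).trans (hτ.rx (by decide) hj))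
  have hi' := aC_lt (n := 3) (by decide) hi
  have hj' := aC_lt (n := 3) (by decide) hj
  have key : ∀ i < 13, ∀ j < 13, (∀ c : ZMod 3, (jb i c ↔ jb j c) ∧ (jb (aC 3 i) c ↔ jb (aC 3 j) c) ∧
      (jb (aC 3 (aC 3 i)) c ↔ jb (aC 3 (aC 3 j)) c)) → i = j := by decide +kernel
  exact key i hi j hj fun c => ⟨jb_of_isConj hi hj h c, jb_of_isConj hi' hj' (step hi hj h) c,
    jb_of_isConj (aC_lt (by decide) hi') (aC_lt (by decide) hj') (step hi' hj' (step hi hj h)) c⟩

end Cfsg.Agent.O8
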