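/-
The automorphism group of `D₄(3)`: the outer automorphism group embeds in the symmetric group of degree
four, compatibly with the action on the thirteen classes of elements of order three.
-/
import Cfsg.Agent.O8.Cls
import Cfsg.Agent.O8.AutSt

set_option autoImplicit false

namespace Cfsg.Agent.O8

open Cfsg.Agent.M24 Cfsg.Agent.Cl.Orth Cfsg.Lie
open Cfsg.Agent.Chev (dgt pck mD4 linkD4 PD4 YD4 rsD4)

/-- the multiplication seen through the group structure -/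
abbrev gMul (G : Type*) [Group G] : Mul G := inferInstance

noncomputable instance mulL8 : Mul L8 := gMul L8

theorem sx_mod (k : ℕ) : sx (k % 16) = sx k := by
  have h1 : sr (k % 16) = sr k := by simp only [sr, Nat.mod_mod_of_dvd k (show 8 ∣ 16 by decide)]
  have h2 : st (k % 16) = st k := by simp only [st]; congr 2; omega
  rw [sx, h1, h2, sx]

theorem lm_mod (n k : ℕ) : lm n (k % 16) = lm n k := by
  have h1 : k % 16 / 4 % 2 = k / 4 % 2 := by omega
  have h2 : k % 16 / 8 % 2 = k / 8 % 2 := by omega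
  simp only [lm, Nat.mod_mod_of_dvd k (show 4 ∣ 16 by decide), h1, h2]

theorem isLM_of_lt {α : L8 →* L8} {n : ℕ} (h : ∀ k < 16, α (sx k) = sx (lm n k)) : IsLM α n := fun k => by
  rw [← sx_mod, h _ (Nat.mod_lt _ (by decide)), lm_mod]

theorem xp_eq (i : Fin 4) (b : Fin 2) :
    (PD4 (ZMod 3)).x (rsD4.simple i) (1 + b.val) = sx (i + 8 * b) := by
  have : ∀ (i : Fin 4) (b : Fin 2), (rsD4.simple i).val = sr (i + 8 * b) ∧ 1 + b.val = st (i + 8 * b) := by
    decide +kernel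
  rw [(mD4 (ZMod 3)).st_x, sx, (this i b).1, (this i b).2]

theorem xm_eq (i : Fin 4) (b : Fin 2) :
    (PD4 (ZMod 3)).x (rsD4.neg (rsD4.simple i)) (1 + b.val) = sx (i + 4 + 8 * b) := by
  have : ∀ (i : Fin 4) (b : Fin 2), (rsD4.neg (rsD4.simple i)).val = sr (i + 4 + 8 * b) ∧
      1 + b.val = st (i + 4 + 8 * b) := by
    decide +kernel
  rw [(mD4 (ZMod 3)).st_x, sx, (this i b).1, (this i b).2]

theorem hom_ext_sx {M : Type*} [Group M] {f g : L8 →* M} (h : ∀ k < 16, f (sx k) = g (sx k)) : f = g := by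
  have h3 : ∀ t : ZMod 3, t = 0 ∨ ∃ b : Fin 2, t = 1 + b.val := by decide
  have := closure_simple (P := PD4 (ZMod 3)) ((mD4 (ZMod 3)).st_G0 linkD4) (K := f.eqLocus g)
    (fun i t => by
      rcases h3 t with rfl | ⟨b, rfl⟩
      · rw [Chev.St0.x_zero]; exact one_mem _
      · rw [xp_eq i b]; exact h _ (by have : i.val < 4 := i.2; omega))
    (fun i t => by
      rcases h3 t with rfl | ⟨b, rfl⟩
      · rw [Chev.St0.x_zero]; exact one_mem _
      · rw [xm_eq i b]; exact h _ (by have : i.val < 4 := i.2; omega))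
  exact MonoidHom.ext fun x => (this ▸ trivial : x ∈ f.eqLocus g)

/-- which letters commute -/
def cmF (a b : ℕ) : Prop :=
  if a / 4 % 2 = b / 4 % 2 then (a % 4 = 1 ↔ b % 4 = 1) else a % 4 ≠ b % 4

instance decidable_cmF (a b : ℕ) : Decidable (cmF a b) := by unfold cmF; infer_instance

theorem comm_iff {a b : ℕ} (ha : a < 16) (hb : b < 16) : sx a * sx b = sx b * sx a ↔ cmF a b := by
  have key : ∀ a < 16, ∀ b < 16, (cmF a b → Nat.beq (cw [a, b]) (cw [b, a]) = true) ∧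
      (¬ cmF a b → cw [a, b] ≠ cw [b, a] ∧ cw [a, b] ≠ mul3 NEG (cw [b, a])) := by decide +kernel
  constructor
  · intro h
    by_contra h'
    exact xw_ne ((key a ha b hb).2 h') (by simpa [xw] using h)
  · intro h
    simpa [xw] using xw_eq ((key a ha b hb).1 h)

theorem braid_iff (i : Fin 4) (b c : Fin 2) : sx (i + 8 * b) * sx (i + 4 + 8 * c) * sx (i + 8 * b) =
    sx (i + 4 + 8 * c) * sx (i + 8 * b) * sx (i + 4 + 8 * c) ↔ b ≠ c := by
  have key : ∀ (i : Fin 4) (b c : Fin 2), (b ≠ c → Nat.beq (cw [i + 8 * b, i + 4 + 8 * c, i + 8 * b])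
      (cw [i + 4 + 8 * c, i + 8 * b, i + 4 + 8 * c]) = true) ∧
      (b = c → cw [i + 8 * b, i + 4 + 8 * c, i + 8 * b] ≠ cw [i + 4 + 8 * c, i + 8 * b, i + 4 + 8 * c] ∧
        cw [i + 8 * b, i + 4 + 8 * c, i + 8 * b] ≠ mul3 NEG (cw [i + 4 + 8 * c, i + 8 * b, i + 4 + 8 * c])) := by
    decide +kernel
  constructor
  · intro h h'
    exact xw_ne ((key i b c).2 h') (by simpa [xw, mul_assoc] using h)
  · intro h
    simpa [xw, mul_assoc] using xw_eq ((key i b c).1 h)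

theorem aux_root {α : L8 ≃* L8} {r s : Fin chevD4.nroots}
    (h : ∀ t, ∃ u, α ((PD4 (ZMod 3)).x r t) = (PD4 (ZMod 3)).x s u) :
    ∃ c : Fin 2, ∀ b : Fin 2, α ((PD4 (ZMod 3)).x r (1 + b.val)) = (PD4 (ZMod 3)).x s (1 + (b + c).val) := by
  obtain ⟨u, hu⟩ := h 1
  have h0 : u ≠ 0 := by
    rintro rfl
    rw [Chev.St0.x_zero, map_eq_one_iff _ α.injective] at hu
    exact one_ne_zero (((mD4 (ZMod 3)).st_faithful linkD4).eq_zero_of_x_eq_one hu)
  have h3 : ∀ u : ZMod 3, u ≠ 0 → ∃ c : Fin 2, u = 1 + ((0 + c : Fin 2) : ℕ) ∧ u + u = 1 + ((1 + c : Fin 2) : ℕ) := by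
    decide
  obtain ⟨c, h1, h2⟩ := h3 u h0
  refine ⟨c, fun b => ?_⟩
  fin_cases b
  · exact (congrArg (fun t => α ((PD4 (ZMod 3)).x r t)) (by decide)).trans (hu.trans (by rw [h1]; rfl))
  · have := (PD4 (ZMod 3)).x_add r 1 1
    have e := congrArg α this
    rw [map_mul, hu, (PD4 (ZMod 3)).x_add, h2] at e
    exact e.symm

theorem exists_isLM_of_fix {α : L8 ≃* L8} (hU : FixS α (PD4 (ZMod 3)).U) (hV : FixS α (PD4 (ZMod 3)).V) :
    ∃ n < 96, IsLM α.toMonoidHom n := by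
  have hP := (mD4 (ZMod 3)).st_faithful linkD4
  have ht := (mD4 (ZMod 3)).st_G0 linkD4
  choose ρ hρ using exists_pos_simple hP ht hU hV
  choose σ hσ using exists_neg_simple hP ht hU hV
  choose c hc using fun i => aux_root (hρ i)
  choose d hd using fun i => aux_root (hσ i)
  change Fin 4 → Fin 4 at ρ σ
  change Fin 4 → Fin 2 at c d
  have hc' : ∀ (i : Fin 4) (b : Fin 2), α (sx (i + 8 * b)) = sx (ρ i + 8 * (b + c i : Fin 2)) := fun i b => by
    rw [← xp_eq, ← xp_eq]; exact hc i b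
  have hd' : ∀ (i : Fin 4) (b : Fin 2), α (sx (i + 4 + 8 * b)) = sx (σ i + 4 + 8 * (b + d i : Fin 2)) :=
    fun i b => by rw [← xm_eq, ← xm_eq]; exact hd i b
  have hcm : ∀ {a b a' b' : ℕ}, a < 16 → b < 16 → a' < 16 → b' < 16 → α (sx a) = sx a' → α (sx b) = sx b' →
      (cmF a b ↔ cmF a' b') := fun h1 h2 h3 h4 e1 e2 => by
    rw [← comm_iff h1 h2, ← comm_iff h3 h4, ← e1, ← e2, ← map_mul, ← map_mul, α.injective.eq_iff]
  have k1 : ∀ (i k : Fin 4) (b c : Fin 2), cmF (i + 8 * b) (k + 4 + 8 * c) ↔ i ≠ k := by decide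
  have k2 : ∀ (i k : Fin 4) (b c : Fin 2), cmF (i + 8 * b) (k + 8 * c) ↔ (i = 1 ↔ k = 1) := by decide
  have h1 : ∀ i k, i ≠ k ↔ ρ i ≠ σ k := fun i k => by
    rw [← k1 i k 0 0, hcm (by omega) (by omega) (by omega) (by omega) (hc' i 0) (hd' k 0), k1]
  have h2 : ∀ i k, (i = 1 ↔ k = 1) ↔ (ρ i = 1 ↔ ρ k = 1) := fun i k => by
    rw [← k2 i k 0 0, hcm (by omega) (by omega) (by omega) (by omega) (hc' i 0) (hc' k 0), k2]
  obtain rfl : ρ = σ := funext fun i => by_contra fun h => (h1 i i).2 h rfl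
  obtain rfl : c = d := funext fun i => by
    have := congrArg α ((braid_iff i 0 1).2 (by decide))
    simp only [map_mul, hc', hd', braid_iff] at this
    revert this; generalize c i = x; generalize d i = y; revert x y; decide
  have k3 : ∀ ρ : Fin 4 → Fin 4, (∀ i k, i ≠ k ↔ ρ i ≠ ρ k) → (∀ i k, (i = 1 ↔ k = 1) ↔ (ρ i = 1 ↔ ρ k = 1)) →
      ∀ c : Fin 4 → Fin 2, ∃ n < 96, ∀ (i : Fin 4) (b : Fin 2), lm n (i + 8 * b) = ρ i + 8 * (b + c i : Fin 2) ∧
        lm n (i + 4 + 8 * b) = ρ i + 4 + 8 * (b + c i : Fin 2) := by decide +kernel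
  obtain ⟨n, hn, h⟩ := k3 ρ h1 h2 c
  refine ⟨n, hn, isLM_of_lt fun k hk => ?_⟩
  have k4 : ∀ k : ℕ, k < 16 → ∃ (i : Fin 4) (b : Fin 2), k = i + 8 * b ∨ k = i + 4 + 8 * b := by decide
  obtain ⟨i, b, rfl | rfl⟩ := k4 k hk
  · rw [(h i b).1]; exact hc' i b
  · rw [(h i b).2]; exact hd' i b

theorem exists_isLM (α : L8 ≃* L8) : ∃ g : L8, ∃ n < 96, IsLM (α.trans (MulAut.conj g)).toMonoidHom n := by
  obtain ⟨g, h1, h2⟩ := exists_fix_UV ((mD4 (ZMod 3)).st_faithful linkD4) ((mD4 (ZMod 3)).st_G0 linkD4) 3 α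
  exact ⟨g, exists_isLM_of_fix h1 h2⟩

theorem IsLM.inner {α : L8 →* L8} {n : ℕ} (h : IsLM α n) (hn : n < 96) (h1 : ∀ i < 4, aC n i = i) :
    ∃ g, ∀ x, α x = g * x * g⁻¹ := by
  have key : ∀ n < 96, (∀ i < 4, aC n i = i) → ∀ k < 16, mul3 (wd tcD0 (lget iT 0 n)) (dgt 1024 tcS (k % 16)) =
      mul3 (dgt 1024 tcS (lm n k % 16)) (wd tcD0 (lget iT 0 n)) := by decide +kernel
  obtain ⟨g, hg, e⟩ := wd_ok tD0_ok (lget iT 0 n)
  refine ⟨adL ⟨g, hg⟩, fun x => DFunLike.congr_fun (hom_ext_sx (g := (MulAut.conj (adL ⟨g, hg⟩)).toMonoidHom)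
    fun k hk => ?_) x⟩
  have := key n hn h1 k hk
  rw [← e, ← cd_sy, ← cd_sy, ← cd_mul, ← cd_mul] at this
  have e2 : (⟨g, hg⟩ : EG Q8) * sy k = sy (lm n k) * ⟨g, hg⟩ := Subtype.ext (cd_injective this)
  have e3 := congrArg adL e2
  rw [map_mul, map_mul, adL_sy, adL_sy] at e3
  rw [h k]
  exact (mul_inv_eq_iff_eq_mul.2 e3).symm

/-- the action of the symmetric group on the thirteen classes: points, pairs and three fixed classes -/
def act (p : Equiv.Perm (Fin 4)) (i : Fin 13) : Fin 13 :=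
  if i.val < 10 then ![![0, 4, 5, 6], ![4, 1, 7, 8], ![5, 7, 2, 9], ![6, 8, 9, 3]]
    (p (![0, 1, 2, 3, 0, 0, 0, 1, 1, 2, 0, 0, 0] i)) (p (![0, 1, 2, 3, 1, 2, 3, 2, 3, 3, 0, 0, 0] i)) else i

theorem act_mul (p q : Equiv.Perm (Fin 4)) (i : Fin 13) : act (p * q) i = act p (act q i) := by
  revert p q i; decide +kernel

theorem act_one (i : Fin 13) : act 1 i = i := by revert i; decide +kernel

theorem act_inj {p q : Equiv.Perm (Fin 4)} (h : ∀ i, act p i = act q i) : p = q := by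
  revert p q; decide +kernel

theorem exists_act {n : ℕ} (hn : n < 96) : ∃ p, ∀ i : Fin 13, aC n i = act p i := by
  revert n; decide +kernel

theorem exists_perm (α : MulAut L8) : ∃ p, ∀ i : Fin 13, IsConj (α (rx i)) (rx (act p i)) := by
  obtain ⟨g, n, hn, h⟩ := exists_isLM α
  obtain ⟨p, hp⟩ := exists_act hn
  refine ⟨p, fun i => ?_⟩
  rw [← hp]
  exact (isConj_iff.2 ⟨g, rfl⟩).trans (h.rx hn i.2)

theorem perm_unique {α : MulAut L8} {p q : Equiv.Perm (Fin 4)} (hp : ∀ i : Fin 13, IsConj (α (rx i)) (rx (act p i)))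
    (hq : ∀ i : Fin 13, IsConj (α (rx i)) (rx (act q i))) : p = q :=
  act_inj fun i => Fin.ext (rx_inj (Fin.is_lt _) (Fin.is_lt _) ((hp i).symm.trans (hq i)))

/-- the action of the automorphism group on four points -/
noncomputable def phi : MulAut L8 →* Equiv.Perm (Fin 4) :=
  MonoidHom.mk' (fun α => (exists_perm α).choose) fun α β =>
    perm_unique (exists_perm (α * β)).choose_spec fun i => by
      rw [act_mul]
      exact (α.toMonoidHom.map_isConj ((exists_perm β).choose_spec i)).trans ((exists_perm α).choose_spec _)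

theorem phi_spec (α : MulAut L8) (i : Fin 13) : IsConj (α (rx i)) (rx (act (phi α) i)) :=
  (exists_perm α).choose_spec i

theorem phi_eq_one_iff {α : MulAut L8} : phi α = 1 ↔ ∃ g, α = MulAut.conj g := by
  constructor
  · intro h
    obtain ⟨g, n, hn, h1⟩ := exists_isLM α
    obtain ⟨k, hk⟩ := h1.inner hn fun i hi => by
      have e1 := phi_spec α ⟨i, by omega⟩
      rw [h, act_one] at e1
      exact rx_inj (aC_lt hn (by omega)) (by omega)
        ((h1.rx hn (by omega)).symm.trans ((isConj_iff.2 ⟨g, rfl⟩).symm.trans e1))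
    refine ⟨g⁻¹ * k, MulEquiv.ext fun x => ?_⟩
    have : g * α x * g⁻¹ = k * x * k⁻¹ := hk x
    calc α x = g⁻¹ * (g * α x * g⁻¹) * g := by group
      _ = _ := by rw [this, MulAut.conj_apply]; group
  · rintro ⟨g, rfl⟩
    exact perm_unique (phi_spec _) fun i => by rw [act_one]; exact (isConj_iff.2 ⟨g, rfl⟩).symm

end Cfsg.Agent.O8
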