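/-
Kernel-friendly arithmetic of `8 × 8` matrices over the field with three elements: a matrix is a
natural number with 64 lanes of 16 bits.
-/
import Cfsg.Agent.Chev.TwEng
import Cfsg.Agent.M24.Kit

set_option autoImplicit false

namespace Cfsg.Agent.O8

open Cfsg.Agent.Chev Cfsg.Agent.M24 Finset

/-- the index type of the matrices -/
abbrev I8 : Type := Fin 4 ⊕ Fin 4

/-- position of an index -/
def ix : I8 → ℕ := Sum.elim (fun i => i.val) (fun i => i.val + 4)

theorem ix_lt (a : I8) : ix a < 8 := by revert a; decide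

theorem sum_ix {M : Type*} [AddCommMonoid M] (f : ℕ → M) : ∑ a : I8, f (ix a) = ∑ k ∈ range 8, f k := by
  simp [Fintype.sum_sum_type, Fin.sum_univ_four, ix, sum_range_succ, add_assoc]

/-- the index at a position -/
def xi (k : ℕ) : I8 := if h : k < 4 then .inl ⟨k, h⟩ else .inr ⟨(k - 4) % 4, Nat.mod_lt _ (by decide)⟩

theorem xi_ix (a : I8) : xi (ix a) = a := by revert a; decide

theorem ix_xi {k : ℕ} (h : k < 8) : ix (xi k) = k := by interval_cases k <;> rfl

theorem pck_eq_sum (W d : ℕ) (f : ℕ → ℕ) (h : ∀ b < d, f b < 2 ^ W) :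
    pck W d f = ∑ b ∈ range d, f b * (2 ^ W) ^ b := by
  induction d with
  | zero => rfl
  | succ d ih =>
    rw [pck_succ, sum_range_succ, ih fun b hb => h b (by omega), Nat.mod_eq_of_lt (h d (by omega))]

theorem dgt_sum {W d : ℕ} {f : ℕ → ℕ} (h : ∀ b < d, f b < 2 ^ W) {b : ℕ} (hb : b < d) :
    dgt W (∑ b ∈ range d, f b * (2 ^ W) ^ b) b = f b := by
  rw [← pck_eq_sum W d f h, dgt_pck _ _ hb, Nat.mod_eq_of_lt (h b hb)]

theorem sum_lt {W d : ℕ} {f : ℕ → ℕ} (h : ∀ b < d, f b < 2 ^ W) :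
    ∑ b ∈ range d, f b * (2 ^ W) ^ b < (2 ^ W) ^ d := by
  rw [← pck_eq_sum W d f h]; exact pck_lt _ _ _

theorem dgt_lt (W M b : ℕ) : dgt W M b < 2 ^ W := by
  rw [dgt_eq]; exact Nat.mod_lt _ (by positivity)

theorem sum_dgt (W d M : ℕ) : ∑ b ∈ range d, dgt W M b * (2 ^ W) ^ b = M % (2 ^ W) ^ d := by
  induction d with
  | zero => simp [Nat.mod_one]
  | succ d ih => rw [sum_range_succ, ih, dgt_eq, pow_succ, Nat.mod_mul, mul_comm]

theorem eq_sum_dgt {W d M : ℕ} (h : M < (2 ^ W) ^ d) : M = ∑ b ∈ range d, dgt W M b * (2 ^ W) ^ b := by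
  rw [sum_dgt, Nat.mod_eq_of_lt h]

theorem dgt_land (W X Y b : ℕ) : dgt W (X &&& Y) b = dgt W X b &&& dgt W Y b := by
  show (X &&& Y) >>> (W * b) % 2 ^ W = (X >>> (W * b) % 2 ^ W) &&& (Y >>> (W * b) % 2 ^ W)
  rw [Nat.shiftRight_and_distrib, Nat.and_mod_two_pow]

/-- the code of a matrix -/
noncomputable def code (M : Matrix I8 I8 (ZMod 3)) : ℕ := pck 16 64 fun m => (M (xi (m / 8)) (xi (m % 8))).val

/-- the matrix with a given code -/
def dec (X : ℕ) : Matrix I8 I8 (ZMod 3) := Matrix.of fun p a => (dgt 16 X (8 * ix p + ix a) : ZMod 3)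

theorem dgt_code (M : Matrix I8 I8 (ZMod 3)) {m : ℕ} (h : m < 64) :
    dgt 16 (code M) m = (M (xi (m / 8)) (xi (m % 8))).val := by
  rw [code, dgt_pck _ _ h, Nat.mod_eq_of_lt ((ZMod.val_lt _).trans (by norm_num))]

theorem dec_code (M : Matrix I8 I8 (ZMod 3)) : dec (code M) = M := by
  ext p a
  have h1 := ix_lt p
  have h2 := ix_lt a
  rw [dec, Matrix.of_apply, dgt_code _ (by omega), show (8 * ix p + ix a) / 8 = ix p by omega,
    show (8 * ix p + ix a) % 8 = ix a by omega, xi_ix, xi_ix, ZMod.natCast_zmod_val]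

theorem code_injective : Function.Injective code := fun M N h => by
  rw [← dec_code M, h, dec_code]

theorem code_eq_pck (f : ℕ → ℕ) (M : Matrix I8 I8 (ZMod 3))
    (h : ∀ p a, M p a = (f (8 * ix p + ix a) : ZMod 3)) : code M = pck 16 64 fun m => f m % 3 := by
  have : ∀ d ≤ 64, pck 16 d (fun m => (M (xi (m / 8)) (xi (m % 8))).val) = pck 16 d fun m => f m % 3 := by
    intro d hd
    induction d with
    | zero => rfl
    | succ d ih =>
      rw [pck_succ, pck_succ, ih (by omega), h, ix_xi (by omega), ix_xi (by omega), Nat.div_add_mod,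
        ZMod.val_natCast]
  exact this 64 le_rfl

/-- mask of the first column -/
def CM : ℕ := 0xffff0000000000000000000000000000ffff0000000000000000000000000000ffff0000000000000000000000000000ffff0000000000000000000000000000ffff0000000000000000000000000000ffff0000000000000000000000000000ffff0000000000000000000000000000ffff

/-- mask of the low seven bits of each lane -/
def QM : ℕ := 0x7f007f007f007f007f007f007f007f007f007f007f007f007f007f007f007f007f007f007f007f007f007f007f007f007f007f007f007f007f007f007f007f007f007f007f007f007f007f007f007f007f007f007f007f007f007f007f007f007f007f007f007f007f007f007f007f007f007f007f007f007f007f007f007f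

/-- reduction of all lanes modulo three -/
def red (X : ℕ) : ℕ := Nat.sub X (Nat.mul 3 (Nat.land (Nat.shiftRight (Nat.mul X 171) 9) QM))

/-- one outer product -/
def op (A B k l : ℕ) : ℕ :=
  Nat.mul (Nat.land (Nat.shiftRight A k) CM) (Nat.mod (Nat.shiftRight B l) 0x100000000000000000000000000000000)

/-- the product of two coded matrices -/
noncomputable def mul3 (A B : ℕ) : ℕ :=
  force (Nat.add (Nat.add (Nat.add (op A B 0 0) (op A B 16 128)) (Nat.add (op A B 32 256) (op A B 48 384)))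
    (Nat.add (Nat.add (op A B 64 512) (op A B 80 640)) (Nat.add (op A B 96 768) (op A B 112 896)))) red

theorem red_sum (f : ℕ → ℕ) (h : ∀ m < 64, f m ≤ 32) :
    red (∑ m ∈ range 64, f m * (2 ^ 16) ^ m) = pck 16 64 fun m => f m % 3 := by
  set X := ∑ m ∈ range 64, f m * (2 ^ 16) ^ m with hX
  have h1 : X * 171 = ∑ m ∈ range 64, (f m * 171) * (2 ^ 16) ^ m := by
    rw [hX, sum_mul]; exact sum_congr rfl fun m _ => by ring
  have h2 : ∀ m < 64, dgt 16 (((X * 171) >>> 9) &&& QM) m = f m / 3 := by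
    intro m hm
    have e1 : dgt 16 QM m = 2 ^ 7 - 1 := by
      have : ∀ m < 64, dgt 16 QM m = 2 ^ 7 - 1 := by decide +kernel
      exact this m hm
    have e2 : dgt 16 (X * 171) m = f m * 171 := by
      rw [h1]; exact dgt_sum (f := fun m => f m * 171) (fun b hb => by have := h b hb; omega) hm
    rw [dgt_land, e1, Nat.and_two_pow_sub_one_eq_mod, dgt_eq, Nat.mod_mod_of_dvd _ (by norm_num),
      Nat.shiftRight_eq_div_pow, Nat.div_div_eq_div_mul, mul_comm (2 ^ 9), ← Nat.div_div_eq_div_mul]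
    rw [dgt_eq] at e2
    have := h m hm
    generalize X * 171 / (2 ^ 16) ^ m = y at e2 ⊢
    rw [← Nat.mod_mul_right_div_self, show 2 ^ 9 * 2 ^ 7 = 2 ^ 16 by norm_num, e2]
    generalize f m = x at this
    interval_cases x <;> rfl
  have h3 : ((X * 171) >>> 9) &&& QM = ∑ m ∈ range 64, (f m / 3) * (2 ^ 16) ^ m := by
    rw [eq_sum_dgt (W := 16) (d := 64) (M := ((X * 171) >>> 9) &&& QM)
      (Nat.and_le_right.trans_lt (by decide +kernel))]
    exact sum_congr rfl fun m hm => by rw [h2 m (mem_range.1 hm)]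
  show X - 3 * (((X * 171) >>> 9) &&& QM) = _
  rw [h3, pck_eq_sum _ _ _ fun b _ => (Nat.mod_lt _ (by decide)).trans (by norm_num), hX, mul_sum]
  apply Nat.sub_eq_of_eq_add
  rw [← sum_add_distrib]
  refine sum_congr rfl fun m _ => ?_
  rw [← mul_assoc, ← add_mul, Nat.mod_add_div]

theorem sum_range_64 (f : ℕ → ℕ) : ∑ m ∈ range 64, f m = ∑ i ∈ range 8, ∑ j ∈ range 8, f (8 * i + j) := by
  simp only [sum_range_succ, range_zero, sum_empty]; ring

theorem op_eq (A B : ℕ) {k : ℕ} (hk : k < 8) :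
    op A B (16 * k) (128 * k) =
      ∑ m ∈ range 64, dgt 16 A (8 * (m / 8) + k) * dgt 16 B (8 * k + m % 8) * (2 ^ 16) ^ m := by
  have h1 : (A >>> (16 * k)) &&& CM = ∑ i ∈ range 8, dgt 16 A (8 * i + k) * (2 ^ 128) ^ i := by
    rw [eq_sum_dgt (W := 128) (d := 8) (M := (A >>> (16 * k)) &&& CM)
      (Nat.and_le_right.trans_lt (by decide +kernel))]
    refine sum_congr rfl fun i hi => ?_
    have e1 : dgt 128 CM i = 2 ^ 16 - 1 := by
      have : ∀ m < 8, dgt 128 CM m = 2 ^ 16 - 1 := by decide +kernel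
      exact this i (mem_range.1 hi)
    rw [dgt_land, e1, Nat.and_two_pow_sub_one_eq_mod, dgt_eq, Nat.mod_mod_of_dvd _ (by norm_num),
      Nat.shiftRight_eq_div_pow, Nat.div_div_eq_div_mul, dgt_eq, ← pow_mul, ← pow_mul, ← pow_add]
    congr 4; ring
  have h2 : (B >>> (128 * k)) % 0x100000000000000000000000000000000 =
      ∑ j ∈ range 8, dgt 16 B (8 * k + j) * (2 ^ 16) ^ j := by
    rw [show (0x100000000000000000000000000000000 : ℕ) = (2 ^ 16) ^ 8 by norm_num, ← sum_dgt]
    refine sum_congr rfl fun j _ => ?_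
    rw [dgt_eq, dgt_eq, Nat.shiftRight_eq_div_pow, Nat.div_div_eq_div_mul, ← pow_mul, ← pow_mul,
      ← pow_add]
    congr 4; ring
  show ((A >>> (16 * k)) &&& CM) * ((B >>> (128 * k)) % 0x100000000000000000000000000000000) = _
  rw [h1, h2, sum_mul_sum, sum_range_64]
  refine sum_congr rfl fun i _ => sum_congr rfl fun j hj => ?_
  have := mem_range.1 hj
  rw [show (8 * i + j) / 8 = i by omega, show (8 * i + j) % 8 = j by omega, pow_add, pow_mul]
  norm_num; ring

theorem mul3_code (M N : Matrix I8 I8 (ZMod 3)) : mul3 (code M) (code N) = code (M * N) := by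
  have h : mul3 (code M) (code N) = red (∑ k ∈ range 8, op (code M) (code N) (16 * k) (128 * k)) := by
    rw [mul3, force_eq]
    refine congrArg red ?_
    simp only [sum_range_succ, range_zero, sum_empty, Nat.add_eq, Nat.reduceMul, zero_add, add_assoc]
  rw [h, sum_congr rfl fun k hk => op_eq _ _ (mem_range.1 hk), sum_comm]
  simp only [← sum_mul]
  have hv : ∀ (M : Matrix I8 I8 (ZMod 3)) m, m < 64 → dgt 16 (code M) m ≤ 2 := fun M m hm => by
    rw [dgt_code _ hm]; have := ZMod.val_lt (M (xi (m / 8)) (xi (m % 8))); omega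
  rw [red_sum _ fun m hm => ?_]
  · refine (code_eq_pck _ _ fun p a => ?_).symm
    have h1 := ix_lt p
    have h2 := ix_lt a
    rw [show (8 * ix p + ix a) / 8 = ix p by omega, show (8 * ix p + ix a) % 8 = ix a by omega,
      Matrix.mul_apply, ← sum_ix fun k => dgt 16 (code M) (8 * ix p + k) * dgt 16 (code N) (8 * k + ix a)]
    push_cast
    refine sum_congr rfl fun b _ => ?_
    rw [← dec_code M, ← dec_code N, dec_code M, dec_code N]
    exact congrArg₂ (· * ·) (congrFun (congrFun (dec_code M).symm p) b) (congrFun (congrFun (dec_code N).symm b) a)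
  · refine (sum_le_card_nsmul _ _ 4 fun k hk => ?_).trans (by simp)
    have := mem_range.1 hk
    exact Nat.mul_le_mul (hv M _ (by omega)) (hv N _ (by omega))

end Cfsg.Agent.O8
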