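/-
Elements of order three of an orthogonal group in characteristic three: the inductive step of
their classification (pass to the stabiliser of a hyperbolic pair).
-/
import Cfsg.Agent.Cl.OSimple

set_option autoImplicit false

namespace Cfsg.Agent.O8

open Cfsg.Agent.Cl.Orth

variable {F : Type*} [Field F] {V : Type*} [AddCommGroup V] [Module F V] {Q : QuadraticForm F V}

open Classical in
variable (Q) in
/-- the Eichler transformation as a total function -/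
noncomputable def Ei (u v : V) : OG Q := if h : Q u = 0 ∧ B Q u v = 0 then eich Q u v h.1 h.2 else 1

theorem Ei_eq {u v : V} (hu : Q u = 0) (hv : B Q u v = 0) : Ei Q u v = eich Q u v hu hv := by
  rw [Ei, dif_pos ⟨hu, hv⟩]

theorem Ei_mem_EG (u v : V) : Ei Q u v ∈ EG Q := by
  unfold Ei; split_ifs
  · exact eich_mem_EG _ _
  · exact one_mem _

theorem Ei_add {u v w : V} (hu : Q u = 0) (hv : B Q u v = 0) (hw : B Q u w = 0) :
    Ei Q u (v + w) = Ei Q u v * Ei Q u w := by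
  rw [Ei_eq hu hv, Ei_eq hu hw, eich_mul, Ei_eq]

theorem Ei_zero (u : V) : Ei Q u 0 = 1 := by
  unfold Ei; split_ifs
  · exact eich_zero _ _
  · rfl

theorem conj_Ei (g : OG Q) {u v : V} (hu : Q u = 0) (hv : B Q u v = 0) :
    g * Ei Q u v * g⁻¹ = Ei Q (g.1 u) (g.1 v) := by
  rw [Ei_eq hu hv, conj_eich, Ei_eq]

variable (Q) in
/-- the pointwise stabiliser of a set of vectors -/
def Fx (S : Set V) : Subgroup (OG Q) where
  carrier := {g | ∀ s ∈ S, g.1 s = s}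
  one_mem' := fun _ _ => rfl
  mul_mem' := fun {a b} ha hb s hs => by rw [OG.mul_apply, hb s hs, ha s hs]
  inv_mem' := fun {a} ha s hs => by
    have := OG.inv_apply_apply a s
    rwa [ha s hs] at this

variable (Q) in
/-- the orthogonal complement of a set of vectors -/
def Pp (S : Set V) : Submodule F V where
  carrier := {x | ∀ s ∈ S, B Q s x = 0}
  zero_mem' := fun _ _ => map_zero _
  add_mem' := fun {a b} ha hb s hs => by rw [map_add, ha s hs, hb s hs, add_zero]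
  smul_mem' := fun c a ha s hs => by rw [map_smul, ha s hs, smul_zero]

variable {S S' : Set V} {e f : V}

theorem mem_Fx {g : OG Q} : g ∈ Fx Q S ↔ ∀ s ∈ S, g.1 s = s := Iff.rfl

theorem mem_Pp {x : V} : x ∈ Pp Q S ↔ ∀ s ∈ S, B Q s x = 0 := Iff.rfl

theorem Fx_anti (h : S ⊆ S') : Fx Q S' ≤ Fx Q S := fun _ hg s hs => hg s (h hs)

theorem Pp_anti (h : S ⊆ S') : Pp Q S' ≤ Pp Q S := fun _ hg s hs => hg s (h hs)

theorem apply_mem_Pp {g : OG Q} (hg : g ∈ Fx Q S) {x : V} (hx : x ∈ Pp Q S) : g.1 x ∈ Pp Q S :=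
  fun s hs => by rw [← hg s hs, OG.B_apply, hx s hs]

theorem Ei_mem_Fx {u v : V} (hu : u ∈ Pp Q S) (hv : v ∈ Pp Q S) : Ei Q u v ∈ Fx Q S := by
  unfold Ei; split_ifs
  · exact fun s hs => eich_of_orth _ _ (hu s hs) (hv s hs)
  · exact one_mem _

theorem mem_Fx_insert {g : OG Q} : g ∈ Fx Q (insert e S) ↔ g.1 e = e ∧ g ∈ Fx Q S := by
  simp [mem_Fx]

theorem mem_Pp_insert {x : V} : x ∈ Pp Q (insert e S) ↔ B Q e x = 0 ∧ x ∈ Pp Q S := by
  simp [mem_Pp]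

variable (Q) in
/-- the polar form is non-degenerate on the orthogonal complement -/
def ND (S : Set V) : Prop := ∀ x ∈ Pp Q S, x ≠ 0 → ∃ y ∈ Pp Q S, B Q x y ≠ 0

theorem ND.insert (h : ND Q S) (H : Hyp Q e f) (he : e ∈ Pp Q S) (hf : f ∈ Pp Q S) :
    ND Q (insert e (insert f S)) := by
  intro x hx h0
  simp only [mem_Pp_insert] at hx
  obtain ⟨y, hy, hxy⟩ := h x hx.2.2 h0
  refine ⟨pr Q e f y, ?_, ?_⟩
  · simp only [mem_Pp_insert]
    exact ⟨pr_e H y, pr_f H y, pr_mem he hf hy⟩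
  · rwa [B_comm, B_pr hx.1 hx.2.1, B_comm]

theorem fix_sing (h3 : (3 : F) = 0) {g : OG Q} (hg : g ∈ Fx Q S) (h : g ^ 3 = 1) :
    (∀ x ∈ Pp Q S, g.1 x = x) ∨ ∃ u ∈ Pp Q S, u ≠ 0 ∧ Q u = 0 ∧ g.1 u = u := by
  have h2 : (2 : F) ≠ 0 := fun h2 => one_ne_zero (α := F) (by linear_combination h3 - h2)
  have key : ∀ z ∈ Pp Q S, g.1 z - z ≠ 0 → g.1 (g.1 z - z) = g.1 z - z →
      ∃ u ∈ Pp Q S, u ≠ 0 ∧ Q u = 0 ∧ g.1 u = u := fun z hz h0 h1 => by
    refine ⟨_, sub_mem (apply_mem_Pp hg hz) hz, h0, ?_, h1⟩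
    have := B_fix_moved h1 z
    rw [B_self] at this
    exact (mul_eq_zero.1 this).resolve_left h2
  by_cases h1 : ∀ x ∈ Pp Q S, g.1 x = x
  · exact Or.inl h1
  right
  push Not at h1
  obtain ⟨x, hx, h1⟩ := h1
  by_cases h4 : g.1 (g.1 x - x) = g.1 x - x
  · exact key x hx (sub_ne_zero.2 h1) h4
  refine key _ (sub_mem (apply_mem_Pp hg hx) hx) (sub_ne_zero.2 h4) ?_
  have h5 : g.1 (g.1 (g.1 x)) = x := by
    have := congrArg (fun k : OG Q => k.1 x) h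
    simpa [pow_succ, OG.mul_apply] using this
  simp only [map_sub, h5]
  have : (3 : F) • (g.1 x - g.1 (g.1 x)) = 0 := by rw [h3, zero_smul]
  linear_combination (norm := module) this

theorem fix_e (H : Hyp Q e f) (he : e ∈ Pp Q S) (hf : f ∈ Pp Q S) {g : OG Q} (hg : g ∈ Fx Q S)
    (h : g ^ 3 = 1) (hge : g.1 e = e) :
    ∃ v ∈ Pp Q (insert e (insert f S)), ∃ y ∈ Fx Q (insert e (insert f S)), y ^ 3 = 1 ∧ g = Ei Q e v * y := by
  have H' : Hyp Q e (g.1 f) := by simpa [hge] using H.map g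
  have hv : -pr Q e f (g.1 f) ∈ Pp Q (insert e (insert f S)) := by
    refine neg_mem ?_
    simp only [mem_Pp_insert]
    exact ⟨pr_e H _, pr_f H _, pr_mem he hf (apply_mem_Pp hg hf)⟩
  set v := -pr Q e f (g.1 f) with hvd
  have hv' := hv
  simp only [mem_Pp_insert] at hv'
  have h1 : (Ei Q e v).1 f = g.1 f := by rw [Ei_eq H.he hv'.1]; exact H.eich_map_f H'
  have h2 : (Ei Q e v).1 e = e := by rw [Ei_eq H.he hv'.1]; exact eich_self _ _
  have hy : (Ei Q e v)⁻¹ * g ∈ Fx Q (insert e (insert f S)) := by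
    simp only [mem_Fx_insert]
    refine ⟨?_, ?_, mul_mem (inv_mem (Ei_mem_Fx he hv'.2.2)) hg⟩
    · rw [OG.mul_apply, hge]; nth_rewrite 2 [← h2]; exact OG.inv_apply_apply _ _
    · rw [OG.mul_apply, ← h1]; exact OG.inv_apply_apply _ _
  refine ⟨v, hv, _, hy, ?_, by simp⟩
  set y := (Ei Q e v)⁻¹ * g with hyd
  have hy' := hy
  simp only [mem_Fx_insert] at hy'
  have hg' : g = Ei Q e v * y := by simp [hyd]
  have c1 := apply_mem_Pp hy hv
  have c2 := apply_mem_Pp hy c1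
  have d1 := conj_Ei y H.he hv'.1
  have d2 := conj_Ei y H.he (mem_Pp_insert.1 c1).1
  rw [hy'.1] at d1 d2
  have c3 := add_mem (add_mem hv c1) c2
  have e1 : Ei Q e (v + y.1 v + y.1 (y.1 v)) * y ^ 3 = 1 := by
    rw [Ei_add H.he (mem_Pp_insert.1 (add_mem hv c1)).1 (mem_Pp_insert.1 c2).1,
      Ei_add H.he hv'.1 (mem_Pp_insert.1 c1).1, ← d2, ← d1, ← h, hg']
    simp only [pow_succ]; group
  generalize v + y.1 v + y.1 (y.1 v) = w at c3 e1
  simp only [mem_Pp_insert] at c3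
  have e2 : (Ei Q e w).1 f = f := by
    have := congrArg (fun k : OG Q => k.1 f) e1
    simpa [pow_succ, OG.mul_apply, hy'.2.1] using this
  rw [Ei_eq H.he c3.1, eich_apply, c3.2.1, H.hfe] at e2
  have e3 : w = -(Q w) • e := by linear_combination (norm := module) -e2
  have e4 : Q w = 0 := by
    have := c3.2.1
    rw [e3, map_smul, H.hfe] at this
    simpa using this
  rw [e4, neg_zero, zero_smul] at e3
  rwa [e3, Ei_zero, one_mul] at e1

theorem fix_or (h3 : (3 : F) = 0) (hS : ND Q S) (H : Hyp Q e f) (he : e ∈ Pp Q S) (hf : f ∈ Pp Q S)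
    {K : Subgroup (OG Q)} (hK : ∀ u ∈ Pp Q S, ∀ v ∈ Pp Q S, Ei Q u v ∈ K) {g : OG Q} (hg : g ∈ Fx Q S)
    (h : g ^ 3 = 1) : ∃ η ∈ K ⊓ Fx Q S, (η * g * η⁻¹).1 e = e ∨ (η * g * η⁻¹).1 f = f := by
  rcases fix_sing h3 hg h with h1 | ⟨u, hu, h0, hq, hgu⟩
  · exact ⟨1, one_mem _, Or.inl (by simpa using h1 e he)⟩
  obtain ⟨η, hη, a, b, hab⟩ := H.move (Pp Q S) he hf (K ⊓ Fx Q S)
    (fun w hw h1 _ => by rw [← Ei_eq]; exact ⟨hK _ he _ hw, Ei_mem_Fx he hw⟩)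
    (fun w hw _ h1 => by rw [← Ei_eq]; exact ⟨hK _ hf _ hw, Ei_mem_Fx hf hw⟩) hu (hS u hu h0)
  have h1 : a * b = 0 := by rw [← H.Q_comb, ← hab, OG.Q_apply, hq]
  have h2 : (η * g * η⁻¹).1 (η.1 u) = η.1 u := by
    rw [OG.mul_apply, OG.mul_apply, OG.inv_apply_apply, hgu]
  have h4 := OG.apply_ne_zero η h0
  refine ⟨η, hη, ?_⟩
  rw [hab] at h2 h4
  rcases mul_eq_zero.1 h1 with rfl | rfl
  · right
    rw [zero_smul, zero_add] at h2 h4
    rw [map_smul] at h2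
    exact smul_right_injective _ (left_ne_zero_of_smul h4) h2
  · left
    rw [zero_smul, add_zero] at h2 h4
    rw [map_smul] at h2
    exact smul_right_injective _ (left_ne_zero_of_smul h4) h2

theorem conj_cube {G : Type*} [Group G] {g : G} (h : g ^ 3 = 1) (k : G) : (k * g * k⁻¹) ^ 3 = 1 := by
  rw [conj_pow, h]; simp

/-- the inductive step -/
theorem step (h3 : (3 : F) = 0) (hS : ND Q S) (H : Hyp Q e f) (he : e ∈ Pp Q S) (hf : f ∈ Pp Q S)
    {w : V} (hw : w ∈ Pp Q (insert e (insert f S))) (hqw : Q w ≠ 0)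
    {K : Subgroup (OG Q)} (hK : ∀ u ∈ Pp Q S, ∀ v ∈ Pp Q S, Ei Q u v ∈ K) {R R' : Set (OG Q)}
    (ih : ∀ y ∈ Fx Q (insert e (insert f S)), y ^ 3 = 1 →
      ∃ k ∈ K ⊓ Fx Q (insert e (insert f S)), k * y * k⁻¹ ∈ R')
    (hchk : ∀ r ∈ R', ∀ v ∈ Pp Q (insert e (insert f S)), (Ei Q e v * r) ^ 3 = 1 →
      ∃ k ∈ K ⊓ Fx Q S, k * (Ei Q e v * r) * k⁻¹ ∈ R)
    {g : OG Q} (hg : g ∈ Fx Q S) (h : g ^ 3 = 1) : ∃ k ∈ K ⊓ Fx Q S, k * g * k⁻¹ ∈ R := by
  have hsub : S ⊆ insert e (insert f S) := fun s hs => Or.inr (Or.inr hs)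
  have key : ∀ g ∈ Fx Q S, g ^ 3 = 1 → g.1 e = e → ∃ k ∈ K ⊓ Fx Q S, k * g * k⁻¹ ∈ R := by
    intro g hg h hge
    obtain ⟨v, hv, y, hy, hy3, rfl⟩ := fix_e H he hf hg h hge
    obtain ⟨k, hk, hr⟩ := ih y hy hy3
    have e1 : k * (Ei Q e v * y) * k⁻¹ = Ei Q e (k.1 v) * (k * y * k⁻¹) := by
      have := conj_Ei k H.he (mem_Pp_insert.1 hv).1
      rw [(mem_Fx_insert.1 hk.2).1] at this
      rw [← this]; group
    obtain ⟨k', hk', hr'⟩ := hchk _ hr _ (apply_mem_Pp hk.2 hv) (by rw [← e1]; exact conj_cube h k)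
    refine ⟨k' * k, mul_mem hk' ⟨hk.1, Fx_anti hsub hk.2⟩, ?_⟩
    rw [← e1] at hr'
    convert hr' using 1; group
  obtain ⟨η, hη, h1 | h1⟩ := fix_or h3 hS H he hf hK hg h
  · obtain ⟨k, hk, hr⟩ := key _ (mul_mem (mul_mem hη.2 hg) (inv_mem hη.2)) (conj_cube h η) h1
    exact ⟨k * η, mul_mem hk hη, by convert hr using 1; group⟩
  · have hw' := hw
    simp only [mem_Pp_insert] at hw'
    set σ := Ei Q e w * Ei Q f ((Q w)⁻¹ • w) * Ei Q e w with hσ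
    have hw2 : (Q w)⁻¹ • w ∈ Pp Q S := Submodule.smul_mem _ _ hw'.2.2
    have hσK : σ ∈ K ⊓ Fx Q S :=
      mul_mem (mul_mem ⟨hK _ he _ hw'.2.2, Ei_mem_Fx he hw'.2.2⟩ ⟨hK _ hf _ hw2, Ei_mem_Fx hf hw2⟩)
        ⟨hK _ he _ hw'.2.2, Ei_mem_Fx he hw'.2.2⟩
    have hσf : σ.1 f = (-(Q w)) • e := by
      rw [hσ, Ei_eq H.he hw'.1, Ei_eq H.hf (by simp [hw'.2.1]), H.nElt hw'.1 hw'.2.1 hqw, OG.mul_apply,
        H.tw_f (inv_ne_zero hqw), inv_inv, map_smul, refl_of_orth hw'.1]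
    have h2 : (σ * (η * g * η⁻¹) * σ⁻¹).1 e = e := by
      apply smul_right_injective _ (neg_ne_zero.2 hqw)
      simp only
      rw [← map_smul, ← hσf, OG.mul_apply, OG.mul_apply, OG.inv_apply_apply, h1]
    obtain ⟨k, hk, hr⟩ := key _ (mul_mem (mul_mem hσK.2 (mul_mem (mul_mem hη.2 hg) (inv_mem hη.2)))
      (inv_mem hσK.2)) (conj_cube (conj_cube h η) σ) h2
    exact ⟨k * σ * η, mul_mem (mul_mem hk hσK) hη, by convert hr using 1; group⟩

/-- the base case: a hyperbolic plane -/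
theorem base_plane (h3 : (3 : F) = 0) (hS : ND Q S) (H : Hyp Q e f) (he : e ∈ Pp Q S) (hf : f ∈ Pp Q S)
    (h0 : ∀ v ∈ Pp Q (insert e (insert f S)), v = 0) (h1 : ∀ y ∈ Fx Q (insert e (insert f S)), y = 1)
    {g : OG Q} (hg : g ∈ Fx Q S) (h : g ^ 3 = 1) : g = 1 := by
  obtain ⟨η, hη, h2⟩ := fix_or h3 hS H he hf (K := ⊤) (fun _ _ _ _ => trivial) hg h
  have hm : η * g * η⁻¹ ∈ Fx Q S := mul_mem (mul_mem hη.2 hg) (inv_mem hη.2)
  have : η * g * η⁻¹ = 1 := by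
    rcases h2 with h2 | h2
    · obtain ⟨v, hv, y, hy, -, e1⟩ := fix_e H he hf hm (conj_cube h η) h2
      rw [e1, h0 v hv, h1 y hy, Ei_zero, one_mul]
    · obtain ⟨v, hv, y, hy, -, e1⟩ := fix_e H.symm hf he hm (conj_cube h η) h2
      rw [Set.insert_comm] at hv hy
      rw [e1, h0 v hv, h1 y hy, Ei_zero, one_mul]
  simpa using this

end Cfsg.Agent.O8
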