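/-
Certificates for the conjugacy of elements of order three in the orthogonal group `O₈⁺(3)`.
-/
import Cfsg.Agent.O8.Eng
import Cfsg.Agent.O8.Geo
import Cfsg.Agent.Cl.OChevD4

set_option autoImplicit false

namespace Cfsg.Agent.O8

open Cfsg.Agent.M24 Cfsg.Agent.Cl.Orth Finset
open Cfsg.Agent.Chev (dgt pck)

/-- the hyperbolic form in eight variables over the field with three elements -/
noncomputable abbrev Q8 : QuadraticForm (ZMod 3) (I8 → ZMod 3) := adjD4.Q (ZMod 3)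

theorem Q8_apply (v : I8 → ZMod 3) : Q8 v = ∑ i : Fin 4, v (.inl i) * v (.inr i) := (adjD4_Q v).symm

theorem B8_apply (x y : I8 → ZMod 3) :
    B Q8 x y = ∑ i : Fin 4, (x (.inl i) * y (.inr i) + x (.inr i) * y (.inl i)) := by
  have := Q_add Q8 x y
  simp only [Q8_apply, Fin.sum_univ_four, Pi.add_apply] at this ⊢
  linear_combination -this

/-- ternary digit -/
def d3 (c i : ℕ) : ℕ := Nat.mod (Nat.div c (Nat.pow 3 i)) 3

/-- the vector with a given ternary code -/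
def vec (c : ℕ) : I8 → ZMod 3 := fun a => (d3 c (ix a) : ZMod 3)

/-- the polar form on codes -/
def Bn (a b : ℕ) : ℕ :=
  (d3 a 0 * d3 b 4 + d3 a 4 * d3 b 0 + (d3 a 1 * d3 b 5 + d3 a 5 * d3 b 1) +
    (d3 a 2 * d3 b 6 + d3 a 6 * d3 b 2) + (d3 a 3 * d3 b 7 + d3 a 7 * d3 b 3)) % 3

/-- the quadratic form on codes -/
def Qn (a : ℕ) : ℕ := (d3 a 0 * d3 a 4 + d3 a 1 * d3 a 5 + d3 a 2 * d3 a 6 + d3 a 3 * d3 a 7) % 3

theorem B_vec (a b : ℕ) : B Q8 (vec a) (vec b) = Bn a b := by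
  rw [B8_apply, Bn, ZMod.natCast_mod, Fin.sum_univ_four]; push_cast; rfl

theorem Q_vec (a : ℕ) : Q8 (vec a) = Qn a := by
  rw [Q8_apply, Qn, ZMod.natCast_mod, Fin.sum_univ_four]; push_cast; rfl

theorem B_single_vec (a : I8) (c : ℕ) : B Q8 (Pi.single a 1) (vec c) = d3 c ((ix a + 4) % 8) := by
  rw [B8_apply, Fin.sum_univ_four]
  rcases a with a | a <;> fin_cases a <;> simp [vec, ix]

/-- the code of an Eichler transformation -/
noncomputable def ec (u v : ℕ) : ℕ :=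
  pck 16 64 fun m => (b2n (Nat.beq (m / 8) (m % 8)) + d3 v ((m % 8 + 4) % 8) * d3 u (m / 8) +
    2 * (d3 u ((m % 8 + 4) % 8) * d3 v (m / 8)) + 2 * (Qn v * d3 u ((m % 8 + 4) % 8) * d3 u (m / 8))) % 3

/-- the code of an isometry -/
noncomputable def cd (g : OG Q8) : ℕ := code (adjD4.mat g)

theorem cd_mul (g h : OG Q8) : cd (g * h) = mul3 (cd g) (cd h) := by
  rw [cd, adjD4.mat_mul, ← mul3_code]; rfl

theorem mat_injective : Function.Injective (adjD4.mat : OG Q8 → _) := fun g h e =>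
  OG.ext' fun v => by rw [← adjD4.mat_mulVec, e, adjD4.mat_mulVec]

theorem cd_injective : Function.Injective cd := fun _ _ h => mat_injective (code_injective h)

theorem mat_eq_dec (g : OG Q8) : adjD4.mat g = dec (cd g) := (dec_code _).symm

theorem mat_one : adjD4.mat (1 : OG Q8) = 1 := by
  ext p a; rw [adjD4.mat_apply, OG.one_apply, Matrix.one_apply, Pi.single_apply]

theorem ix_eq_iff (p a : I8) : Nat.beq (ix p) (ix a) = true ↔ p = a := by revert p a; decide

theorem cd_Ei {u v : ℕ} (hu : Qn u = 0) (hv : Bn u v = 0) : cd (Ei Q8 (vec u) (vec v)) = ec u v := by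
  rw [Ei_eq (by rw [Q_vec, hu]; rfl) (by rw [B_vec, hv]; rfl)]
  refine code_eq_pck _ _ fun p a => ?_
  have h1 := ix_lt p
  have h2 := ix_lt a
  rw [show (8 * ix p + ix a) / 8 = ix p by omega, show (8 * ix p + ix a) % 8 = ix a by omega,
    adjD4.mat_apply, eich_apply, B_single_vec, B_single_vec, Q_vec]
  simp only [Pi.sub_apply, Pi.add_apply, Pi.smul_apply, smul_eq_mul, vec, b2n_eq, ix_eq_iff, Pi.single_apply]
  push_cast
  have h3 : (3 : ZMod 3) = 0 := rfl
  linear_combination (-(d3 u ((ix a + 4) % 8) * d3 v (ix p) : ZMod 3) -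
    (Qn v * d3 u ((ix a + 4) % 8) * d3 u (ix p) : ZMod 3)) * h3

/-- the code of the identity -/
def ONE : ℕ := 0x1000000000000000000000000000000000001000000000000000000000000000000000001000000000000000000000000000000000001000000000000000000000000000000000001000000000000000000000000000000000001000000000000000000000000000000000001000000000000000000000000000000000001

theorem cd_one : cd 1 = ONE := by
  have : vec 0 = 0 := by funext a; revert a; decide
  rw [← Ei_zero (Q := Q8) (vec 0), ← this, cd_Ei rfl rfl]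
  decide +kernel

/-- `X` is the code of an element of `K` -/
def WOK (K : Subgroup (OG Q8)) (X : ℕ) : Prop := ∃ h ∈ K, cd h = X

theorem WOK.mul {K : Subgroup (OG Q8)} {X Y : ℕ} (h : WOK K X) (h' : WOK K Y) : WOK K (mul3 X Y) := by
  obtain ⟨a, ha, rfl⟩ := h
  obtain ⟨b, hb, rfl⟩ := h'
  exact ⟨a * b, mul_mem ha hb, cd_mul a b⟩

theorem WOK.one (K : Subgroup (OG Q8)) : WOK K ONE := ⟨1, one_mem _, cd_one⟩

theorem WOK.mono {K K' : Subgroup (OG Q8)} {X : ℕ} (h : WOK K X) (hK : K ≤ K') : WOK K' X := by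
  obtain ⟨a, ha, e⟩ := h
  exact ⟨a, hK ha, e⟩

/-- the set of vectors with the given codes -/
def Sv : List ℕ → Set (I8 → ZMod 3)
  | [] => ∅
  | c :: l => insert (vec c) (Sv l)

theorem mem_Pp_Sv {l : List ℕ} {x : I8 → ZMod 3} : x ∈ Pp Q8 (Sv l) ↔ ∀ c ∈ l, B Q8 (vec c) x = 0 := by
  induction l with
  | nil => simp [Sv, mem_Pp]
  | cons c l ih => simp [Sv, mem_Pp_insert, ih]

theorem vec_mem_Pp {l : List ℕ} {u : ℕ} (h : ∀ c ∈ l, Bn c u = 0) : vec u ∈ Pp Q8 (Sv l) :=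
  mem_Pp_Sv.2 fun c hc => by rw [B_vec, h c hc]; rfl

/-- check of a table of letters -/
noncomputable def chkT (S lt : List ℕ) (TC : ℕ) : Bool :=
  nall 64 fun i => force (Nat.div (lget lt 0 i) 6561) fun u => force (Nat.mod (lget lt 0 i) 6561) fun v =>
    band (Nat.beq (Qn u) 0) (band (Nat.beq (Bn u v) 0)
      (band (lall S fun s => band (Nat.beq (Bn s u) 0) (Nat.beq (Bn s v) 0)) (Nat.beq (dgt 1024 TC i) (ec u v))))

theorem chkT_sound {S lt : List ℕ} {TC : ℕ} (h : chkT S lt TC = true) {K : Subgroup (OG Q8)}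
    (hK : ∀ u ∈ Pp Q8 (Sv S), ∀ v ∈ Pp Q8 (Sv S), Ei Q8 u v ∈ K) :
    ∀ i < 64, WOK (K ⊓ Fx Q8 (Sv S)) (dgt 1024 TC i) := by
  intro i hi
  have := (nall_iff _ _).1 h i hi
  simp only [force_eq, band_eq, Bool.and_eq_true, lall_iff, Nat.beq_eq] at this
  obtain ⟨h1, h2, h3, h4⟩ := this
  have hu := vec_mem_Pp fun c hc => (h3 c hc).1
  have hv := vec_mem_Pp fun c hc => (h3 c hc).2
  exact ⟨_, ⟨hK _ hu _ hv, Ei_mem_Fx hu hv⟩, by rw [cd_Ei h1 h2, h4]⟩

/-- evaluation of a word in the letters of a table -/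
noncomputable def wdr (TC fuel : ℕ) : ℕ → ℕ → ℕ :=
  Nat.rec (motive := fun _ => ℕ → ℕ → ℕ) (fun _ acc => acc)
    (fun _ ih c acc => bif' (Nat.beq c 0) acc
      (force (Nat.div c 64) fun c' => force (dgt 1024 TC (Nat.mod c 64)) fun Y =>
        force (mul3 acc Y) fun a => ih c' a)) fuel

/-- evaluation of a word in the letters of a table -/
noncomputable def wd (TC c : ℕ) : ℕ := wdr TC 64 c ONE

theorem wd_ok {K : Subgroup (OG Q8)} {TC : ℕ} (hT : ∀ i < 64, WOK K (dgt 1024 TC i)) (c : ℕ) :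
    WOK K (wd TC c) := by
  have : ∀ fuel c acc, WOK K acc → WOK K (wdr TC fuel c acc) := by
    intro fuel
    induction fuel with
    | zero => exact fun _ _ h => h
    | succ n ih =>
      intro c acc h
      have : wdr TC (n + 1) c acc = bif' (Nat.beq c 0) acc
        (force (Nat.div c 64) fun c' => force (dgt 1024 TC (Nat.mod c 64)) fun Y =>
          force (mul3 acc Y) fun a => wdr TC n c' a) := rfl
      simp only [this, bif'_eq, force_eq]
      split_ifs
      · exact h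
      · exact ih _ _ (h.mul (hT _ (Nat.mod_lt _ (by decide))))
  exact this _ _ _ (WOK.one K)

/-- `s X = Y s` for the word `s` -/
noncomputable def cjc (TC X Y c : ℕ) : Bool := force (wd TC c) fun s => Nat.beq (mul3 s X) (mul3 Y s)

/-- the number is the code of a matrix -/
noncomputable def isRed (X : ℕ) : Bool := Nat.beq X (pck 16 64 fun m => dgt 16 X m % 3)

theorem code_dec {X : ℕ} (h : isRed X = true) : code (dec X) = X := by
  rw [code_eq_pck (dgt 16 X) (dec X) fun _ _ => rfl]; exact (Nat.eq_of_beq_eq_true h).symm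

theorem cjc_sound {K : Subgroup (OG Q8)} {TC : ℕ} (hT : ∀ i < 64, WOK K (dgt 1024 TC i)) {g : OG Q8}
    {Y c : ℕ} (hY : isRed Y = true) (h : cjc TC (cd g) Y c = true) : ∃ k ∈ K, cd (k * g * k⁻¹) = Y := by
  obtain ⟨k, hk, e⟩ := wd_ok hT c
  refine ⟨k, hk, ?_⟩
  rw [cjc, force_eq, ← e, Nat.beq_eq, ← cd_mul, ← code_dec hY, cd, cd, mul3_code] at h
  have h1 := code_injective h
  rw [cd, adjD4.mat_mul, h1, mul_assoc, ← adjD4.mat_mul, mul_inv_cancel, mat_one, mul_one, code_dec hY]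

/-- ternary trees of certificates -/
inductive Tr
  | lf (c : ℕ) : Tr
  | nd (a b c : Tr) : Tr

/-- the check at a leaf -/
noncomputable def leaf (TC : ℕ) (l : List ℕ) (X c : ℕ) : Bool :=
  bif' (Nat.beq c 0) (force (mul3 X X) fun Y => bif' (Nat.beq (mul3 X Y) ONE) false true)
    (cjc TC X (lget l ONE (Nat.mod c 16)) (Nat.div c 16))

/-- the check of a tree -/
noncomputable def chk (TC : ℕ) (l : List ℕ) (t : Tr) : List ℕ → ℕ → Bool :=
  Tr.rec (motive := fun _ => List ℕ → ℕ → Bool)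
    (fun c zs X => List.rec (motive := fun _ => Bool) (leaf TC l X c) (fun _ _ _ => false) zs)
    (fun _ _ _ ia ib ic zs X => List.rec (motive := fun _ => Bool) false
      (fun z zs _ => band (ia zs X) (force (mul3 z X) fun X1 => band (ib zs X1)
        (force (mul3 z X1) fun X2 => ic zs X2))) zs) t

theorem chk_sound {K : Subgroup (OG Q8)} {TC : ℕ} (hT : ∀ i < 64, WOK K (dgt 1024 TC i)) {l : List ℕ}
    (hl : ∀ r ∈ l, isRed r = true) (h1 : ONE ∈ l) {e : ℕ} (he : Qn e = 0) (bs : List ℕ)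
    (hb : ∀ b ∈ bs, Bn e b = 0) (t : Tr) (g : OG Q8) (h : chk TC l t (bs.map (ec e)) (cd g) = true)
    (v : I8 → ZMod 3) (hv : v ∈ Submodule.span (ZMod 3) (Sv bs)) (h3 : (Ei Q8 (vec e) v * g) ^ 3 = 1) :
    ∃ k ∈ K, cd (k * (Ei Q8 (vec e) v * g) * k⁻¹) ∈ l := by
  have hQ : Q8 (vec e) = 0 := by rw [Q_vec, he]; rfl
  induction bs generalizing t g v with
  | nil =>
    have : v = 0 := by simpa [Sv] using hv
    subst this
    rw [Ei_zero, one_mul] at h3 ⊢
    cases t with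
    | nd => exact absurd h (by simp [chk])
    | lf c =>
      have h' : leaf TC l (cd g) c = true := h
      simp only [leaf, bif'_eq, force_eq] at h'
      split_ifs at h' with c1 c2
      · rw [← cd_mul, ← cd_mul, ← pow_three, h3, cd_one] at c2
        simp at c2
      · have hm : lget l ONE (Nat.mod c 16) ∈ l := by
          rcases lget_mem l ONE (Nat.mod c 16) with h | h
          · exact h
          · rwa [h]
        obtain ⟨k, hk, e⟩ := cjc_sound hT (hl _ hm) h'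
        exact ⟨k, hk, e ▸ hm⟩
  | cons b bs ih =>
    obtain ⟨a, w, hw, rfl⟩ := Submodule.mem_span_insert.1 hv
    have hb0 := hb b List.mem_cons_self
    have hb1 : B Q8 (vec e) (vec b) = 0 := by rw [B_vec, hb0]; rfl
    have hb' : ∀ b ∈ bs, Bn e b = 0 := fun b h => hb b (List.mem_cons_of_mem _ h)
    have hw1 : B Q8 (vec e) w = 0 := by
      have : Submodule.span (ZMod 3) (Sv bs) ≤ Pp Q8 (Sv [e]) := by
        refine Submodule.span_le.2 ?_
        clear ih hw hv h3 h hb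
        induction bs with
        | nil => exact Set.empty_subset _
        | cons c bs ih =>
          exact Set.insert_subset (vec_mem_Pp (by simpa using hb' c List.mem_cons_self))
            (ih fun b h => hb' b (List.mem_cons_of_mem _ h))
      exact mem_Pp_Sv.1 (this hw) e List.mem_cons_self
    cases t with
    | lf c => exact absurd h (by simp [chk])
    | nd t0 t1 t2 =>
      have h' : band (chk TC l t0 (bs.map (ec e)) (cd g)) (force (mul3 (ec e b) (cd g)) fun X1 =>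
        band (chk TC l t1 (bs.map (ec e)) X1) (force (mul3 (ec e b) X1) fun X2 =>
          chk TC l t2 (bs.map (ec e)) X2)) = true := h
      simp only [force_eq, band_eq, Bool.and_eq_true, ← cd_Ei he hb0, ← cd_mul] at h'
      rw [add_comm, Ei_add hQ hw1 (by simp [hb1]), mul_assoc] at h3 ⊢
      have ha : a = 0 ∨ a = 1 ∨ a = 1 + 1 := by clear * -; revert a; decide
      rcases ha with rfl | rfl | rfl
      · rw [zero_smul, Ei_zero, one_mul] at h3 ⊢
        exact ih hb' _ _ h'.1 _ hw h3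
      · rw [one_smul] at h3 ⊢
        exact ih hb' _ _ h'.2.1 _ hw h3
      · rw [add_smul, one_smul, Ei_add hQ hb1 hb1, mul_assoc] at h3 ⊢
        exact ih hb' _ _ h'.2.2 _ hw h3

/-- the numerical side conditions of a level -/
noncomputable def chkL (S : List ℕ) (e f w : ℕ) (bs zs l : List ℕ) : Bool :=
  Nat.beq (Qn e) 0 && Nat.beq (Qn f) 0 && Nat.beq (Bn e f) 1 &&
    lall S (fun s => Nat.beq (Bn s e) 0 && Nat.beq (Bn s f) 0 && Nat.beq (Bn s w) 0) &&
    Nat.beq (Bn e w) 0 && Nat.beq (Bn f w) 0 && (Nat.beq (Qn w) 1) && decide (bs.map (ec e) = zs) &&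
    lall bs (fun b => Nat.beq (Bn e b) 0) && lall l isRed && lany l (Nat.beq ONE)

/-- the classification statement at a level -/
def Cls (K : Subgroup (OG Q8)) (S l : List ℕ) : Prop :=
  ∀ g ∈ Fx Q8 (Sv S), g ^ 3 = 1 → ∃ k ∈ K ⊓ Fx Q8 (Sv S), cd (k * g * k⁻¹) ∈ l

theorem hyp_vec {e f : ℕ} (h1 : Qn e = 0) (h2 : Qn f = 0) (h3 : Bn e f = 1) : Hyp Q8 (vec e) (vec f) :=
  ⟨by rw [Q_vec, h1]; rfl, by rw [Q_vec, h2]; rfl, by rw [B_vec, h3]; rfl⟩

theorem nd_cons {S : List ℕ} {e f : ℕ} (h : ND Q8 (Sv S))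
    (h1 : Qn e = 0 ∧ Qn f = 0 ∧ Bn e f = 1 ∧ (∀ s ∈ S, Bn s e = 0) ∧ ∀ s ∈ S, Bn s f = 0) :
    ND Q8 (Sv (e :: f :: S)) :=
  h.insert (hyp_vec h1.1 h1.2.1 h1.2.2.1) (vec_mem_Pp h1.2.2.2.1) (vec_mem_Pp h1.2.2.2.2)

theorem level {K : Subgroup (OG Q8)} {S : List ℕ} {e f w : ℕ} {bs zs l l' lt : List ℕ} {TC : ℕ}
    (hK : ∀ u ∈ Pp Q8 (Sv S), ∀ v ∈ Pp Q8 (Sv S), Ei Q8 u v ∈ K) (hS : ND Q8 (Sv S))
    (hL : chkL S e f w bs zs l = true) (hT : chkT S lt TC = true)
    (hspan : ∀ v ∈ Pp Q8 (Sv (e :: f :: S)), v ∈ Submodule.span (ZMod 3) (Sv bs))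
    (hchk : ∀ r ∈ l', ∃ t, chk TC l t zs r = true) (ih : Cls K (e :: f :: S) l') : Cls K S l := by
  simp only [chkL, Bool.and_eq_true, lall_iff, lany_iff, Nat.beq_eq, decide_eq_true_eq] at hL
  obtain ⟨⟨⟨⟨⟨⟨⟨⟨⟨⟨h1, h2⟩, h3⟩, h4⟩, h5⟩, h6⟩, h7⟩, rfl⟩, h9⟩, h10⟩, _, h11, rfl⟩ := hL
  intro g hg h
  refine step (R := {g | cd g ∈ l}) (R' := {g | cd g ∈ l'}) (w := vec w) rfl hS (hyp_vec h1 h2 h3)
    (vec_mem_Pp fun c hc => (h4 c hc).1.1) (vec_mem_Pp fun c hc => (h4 c hc).1.2)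
    (vec_mem_Pp (l := e :: f :: S) ?_) (by rw [Q_vec, h7]; decide) hK ih (fun r hr v hv hc => ?_) hg h
  · simp only [List.mem_cons, forall_eq_or_imp]
    exact ⟨h5, h6, fun c hc => (h4 c hc).2⟩
  · obtain ⟨t, ht⟩ := hchk _ hr
    exact chk_sound (chkT_sound hT hK) h10 h11 h1 bs h9 t r ht v (hspan v hv) hc

end Cfsg.Agent.O8
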