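/-
Extensions of `PΩ₈⁺(3)` by the symmetric group of degree three.
-/
import Cfsg.Agent.O8.Aut
import Cfsg.Agent.TT.Comp
import Cfsg.Agent.Chev.StPerf

set_option autoImplicit false

namespace Cfsg.Agent.O8

open Equiv Subgroup

variable {G P : Type*} [Group G] [Group P]

theorem sub_classes {ι : Type*} (L : Subgroup G) (r : ι → G) (hL : ∀ i, r i ∈ L) (h3 : ∀ i, r i ^ 3 = 1)
    (h1 : ∀ i, r i ≠ 1) (hi : ∀ i, IsConj (r i)⁻¹ (r i))
    (ex : ∀ x ∈ L, x ^ 3 = 1 → x ≠ 1 → ∃ i, IsConj x (r i)) (inj : ∀ i j, IsConj (r i) (r j) → i = j) :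
    ∃ Y : ι → Subgroup G, (∀ i, Y i ≤ L ∧ Nat.card (Y i) = 3) ∧
      (∀ i j, (∃ g : G, (Y i).map (MulAut.conj g).toMonoidHom = Y j) → i = j) ∧
      ∀ X : Subgroup G, X ≤ L → Nat.card X = 3 → ∃ i, ∃ g : G, X.map (MulAut.conj g).toMonoidHom = Y i := by
  have ho : ∀ i, orderOf (r i) = 3 := fun i => orderOf_eq_prime (h3 i) (h1 i)
  refine ⟨fun i => zpowers (r i), fun i => ⟨zpowers_le.2 (hL i), by rw [Nat.card_zpowers, ho]⟩, ?_, ?_⟩
  · rintro i j ⟨g, hg⟩
    classical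
    have hm : g * r i * g⁻¹ ∈ zpowers (r j) := hg.le (mem_map_of_mem _ (mem_zpowers _))
    have hc : IsConj (r i) (g * r i * g⁻¹) := isConj_iff.2 ⟨g, rfl⟩
    have : Finite (zpowers (r j)) := Nat.finite_of_card_ne_zero (by rw [Nat.card_zpowers, ho]; decide)
    rw [(isOfFinOrder_iff_pow_eq_one.2 ⟨3, by decide, h3 j⟩).mem_zpowers_iff_mem_range_orderOf, ho] at hm
    obtain ⟨k, hk, e⟩ := Finset.mem_image.1 hm
    rw [← e] at hc
    have hk := Finset.mem_range.1 hk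
    interval_cases k
    · exact absurd (isConj_one_left.1 (by simpa using hc)) (h1 i)
    · exact inj i j (by simpa using hc)
    · rw [show r j ^ 2 = (r j)⁻¹ from eq_inv_of_mul_eq_one_left (by rw [← pow_succ, h3])] at hc
      exact inj i j (hc.trans (hi j))
  · intro X hX hc
    have : Fact (Nat.Prime 3) := ⟨by decide⟩
    have : Finite X := Nat.finite_of_card_ne_zero (by rw [hc]; decide)
    have : Nontrivial X := Finite.one_lt_card_iff_nontrivial.1 (by rw [hc]; decide)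
    obtain ⟨x, hx⟩ := exists_ne (1 : X)
    have e : zpowers (x : G) = X := by
      have := MonoidHom.map_zpowers X.subtype x
      rw [zpowers_eq_top_of_prime_card hc hx] at this
      simpa [← MonoidHom.range_eq_map] using this.symm
    obtain ⟨i, h⟩ := ex x (hX x.2) (by rw [← hc, ← coe_pow, pow_card_eq_one', coe_one]) (by simpa using hx)
    obtain ⟨g, hg⟩ := isConj_iff.1 h
    exact ⟨i, g, by rw [← e, MonoidHom.map_zpowers]; exact congrArg zpowers hg⟩

variable (P) in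
/-- the classes of elements of order three and the outer automorphisms -/
structure Pkg (r : Fin 13 → P) (φ : MulAut P →* Perm (Fin 4)) : Prop where
  cube : ∀ i, r i ^ 3 = 1
  ne : ∀ i, r i ≠ 1
  inv : ∀ i, IsConj (r i)⁻¹ (r i)
  ex : ∀ x, x ^ 3 = 1 → x ≠ 1 → ∃ i, IsConj x (r i)
  inj : ∀ i j, IsConj (r i) (r j) → i = j
  spec : ∀ α i, IsConj (α (r i)) (r (act (φ α) i))
  ker : ∀ α, φ α = 1 ↔ ∃ g, α = MulAut.conj g
  ctr : center P = ⊥

theorem Pkg.congr {r : Fin 13 → P} {φ : MulAut P →* Perm (Fin 4)} (h : Pkg P r φ) (e : G ≃* P) :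
    Pkg G (fun i => e.symm (r i)) (φ.comp (MulAut.congr e).toMonoidHom) where
  cube i := by rw [← map_pow, h.cube, map_one]
  ne i := by simpa using h.ne i
  inv i := by simpa using e.symm.toMonoidHom.map_isConj (h.inv i)
  ex x h3 h1 := by
    obtain ⟨i, hi⟩ := h.ex (e x) (by rw [← map_pow, h3, map_one]) (by simpa using h1)
    exact ⟨i, by simpa using e.symm.toMonoidHom.map_isConj hi⟩
  inj i j hc := h.inj i j (by simpa using e.toMonoidHom.map_isConj hc)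
  spec α i := by simpa using e.symm.toMonoidHom.map_isConj (h.spec (MulAut.congr e α) i)
  ker α := (h.ker _).trans ⟨fun ⟨g, hg⟩ => ⟨e.symm g, MulEquiv.ext fun x => e.injective (by
      simpa using DFunLike.congr_fun hg (e x))⟩,
    by rintro ⟨g, rfl⟩; exact ⟨e g, MulEquiv.ext fun x => by simp⟩⟩
  ctr := eq_bot_iff.2 fun x hx => by
    have : e x ∈ center P := mem_center_iff.2 fun y => by
      simpa using congrArg e (mem_center_iff.1 hx (e.symm y))
    simpa [h.ctr] using this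

theorem center_eq_bot_of_eq {H K : Subgroup G} (e : H = K) (h0 : IsSimpleGroup H ∧ ¬ IsMulCommutative H) :
    center K = ⊥ := by
  subst e
  have := h0.1
  exact (center _).normal_of_characteristic.eq_bot_or_eq_top.resolve_right fun h =>
    h0.2 ⟨⟨fun a b => mem_center_iff.1 (h ▸ mem_top b) a⟩⟩

theorem pkg_L8 : Pkg L8 (fun i => rx i) phi where
  cube i := rx_cube i.2
  ne i := rx_ne_one i.2
  inv i := rx_inv i.2
  ex x h3 h1 := let ⟨i, hi, h⟩ := exists_rx h3 h1; ⟨⟨i, hi⟩, h⟩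
  inj i j h := Fin.ext (rx_inj i.2 j.2 h)
  spec := phi_spec
  ker _ := phi_eq_one_iff
  ctr := center_eq_bot_of_eq ((Chev.mD4 (ZMod 3)).group_eq Chev.linkD4)
    (Chev.isSimpleGroup_group Chev.memD4 (by rintro (h | h) <;> cases h))

theorem Pkg.congr' {H K : Subgroup G} (e : H = K) (h : Nonempty (H ≃* P)) {r : Fin 13 → K}
    {φ : MulAut K →* Perm (Fin 4)} (h1 : Pkg K r φ) : ∃ r φ, Pkg P r φ := by
  subst e; exact ⟨_, _, h1.congr h.some.symm⟩

theorem exists_pkg : ∃ r φ, Pkg (POmega (ZMod 3) (quadFormPlus 4 (ZMod 3))) r φ :=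
  Pkg.congr' ((Chev.mD4 (ZMod 3)).group_eq Chev.linkD4) Cl.Orth.chevD4_equiv_pomega pkg_L8

theorem exists_stab (f : Perm (Fin 3) →* Perm (Fin 4)) (hf : Function.Injective f) :
    ∃ i, ∀ p, p ∈ f.range ↔ p i = i := by
  have k1 : ∀ t s : Perm (Fin 4), t * t * t = 1 → t ≠ 1 → s * s = 1 → s ≠ 1 → s * t * s * t = 1 → ∃ i, ∀ p : Perm (Fin 4),
      p i = i ↔ p = 1 ∨ p = t ∨ p = t * t ∨ p = s ∨ p = s * t ∨ p = s * t * t := by decide +kernel
  have k2 : ∀ p : Perm (Fin 3), p = 1 ∨ p = finRotate 3 ∨ p = finRotate 3 * finRotate 3 ∨ p = swap 0 1 ∨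
      p = swap 0 1 * finRotate 3 ∨ p = swap 0 1 * finRotate 3 * finRotate 3 := by decide
  obtain ⟨i, hi⟩ := k1 (f (finRotate 3)) (f (swap 0 1))
    (by rw [← map_mul, ← map_mul, map_eq_one_iff _ hf]; decide) (by rw [Ne, map_eq_one_iff _ hf]; decide)
    (by rw [← map_mul, map_eq_one_iff _ hf]; decide) (by rw [Ne, map_eq_one_iff _ hf]; decide)
    (by rw [← map_mul, ← map_mul, ← map_mul, map_eq_one_iff _ hf]; decide)
  refine ⟨i, fun p => Iff.trans ⟨?_, ?_⟩ (hi p).symm⟩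
  · rintro ⟨q, rfl⟩
    rcases k2 q with rfl | rfl | rfl | rfl | rfl | rfl <;> simp
  · simp only [← map_mul]
    rintro (rfl | rfl | rfl | rfl | rfl | rfl)
    exacts [one_mem _, ⟨_, rfl⟩, ⟨_, rfl⟩, ⟨_, rfl⟩, ⟨_, rfl⟩, ⟨_, rfl⟩]

theorem Pkg.exists_emb {r : Fin 13 → P} {φ : MulAut P →* Perm (Fin 4)} (h : Pkg P r φ) (L : Subgroup G) [L.Normal]
    (hC : centralizer (L : Set G) ≤ L) (e : L ≃* P) (q : G ⧸ L ≃* Perm (Fin 3)) :
    ∃ (c : G →* MulAut P) (i : Fin 4), Function.Injective c ∧ (∀ α, α ∈ c.range ↔ φ α i = i) ∧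
      (∀ p : Perm (Fin 4), p i = i → ∃ g, φ (c g) = p) ∧ ∀ g (x : L), (e.symm (c g (e x)) : G) = g * x * g⁻¹ := by
  let c : G →* MulAut P := (MulAut.congr e).toMonoidHom.comp MulAut.conjNormal
  have hc : ∀ g (x : L), (e.symm (c g (e x)) : G) = g * x * g⁻¹ := fun g x => by simp [c]
  have hl : ∀ x : P, c (e.symm x) = MulAut.conj x := fun x => MulEquiv.ext fun y => e.symm.injective <|
    Subtype.ext <| by simpa using hc (e.symm x) (e.symm y)
  have hi : Function.Injective c := (injective_iff_map_eq_one c).2 fun g hg => by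
    have h1 : ∀ x : L, x * g = g * x := fun x => by
      have := hc g x
      rw [hg, MulAut.one_apply, e.symm_apply_apply] at this
      exact (eq_mul_inv_iff_mul_eq.1 this)
    have h2 : g ∈ L := hC fun x hx => h1 ⟨x, hx⟩
    have h3 : e ⟨g, h2⟩ ∈ center P := mem_center_iff.2 fun y => e.symm.injective <| Subtype.ext <| by
      simpa using h1 (e.symm y)
    simpa [h.ctr] using h3
  have hk : L = (φ.comp c).ker := by
    ext g
    rw [MonoidHom.mem_ker, MonoidHom.comp_apply, h.ker]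
    exact ⟨fun hg => ⟨e ⟨g, hg⟩, by rw [← hl, e.symm_apply_apply]⟩,
      fun ⟨x, hx⟩ => hi (hx.trans (hl x).symm) ▸ (e.symm x).2⟩
  obtain ⟨i, hs⟩ := exists_stab ((QuotientGroup.lift L (φ.comp c) hk.le).comp q.symm.toMonoidHom)
    (((QuotientGroup.injective_lift_iff L _ hk.le).2 hk).comp q.symm.injective)
  have h1 : ∀ p : Perm (Fin 4), p i = i ↔ ∃ g, φ (c g) = p := fun p => by
    rw [← hs]
    constructor
    · rintro ⟨x, rfl⟩
      obtain ⟨g, hg⟩ := QuotientGroup.mk_surjective (q.symm x)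
      exact ⟨g, by simp [← hg]⟩
    · rintro ⟨g, rfl⟩
      exact ⟨q g, by simp⟩
  refine ⟨c, i, hi, fun α => ⟨?_, fun hα => ?_⟩, fun p => (h1 p).1, hc⟩
  · rintro ⟨g, rfl⟩
    exact (h1 _).2 ⟨g, rfl⟩
  · obtain ⟨g, hg⟩ := (h1 _).1 hα
    obtain ⟨x, hx⟩ := (h.ker ((c g)⁻¹ * α)).1 (by rw [map_mul, map_inv, hg, inv_mul_cancel])
    exact ⟨g * e.symm x, by rw [map_mul, hl, ← hx, mul_inv_cancel_left]⟩

theorem Pkg.ext_unique {r : Fin 13 → P} {φ : MulAut P →* Perm (Fin 4)} (h : Pkg P r φ) {G' : Type*} [Group G']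
    (L : Subgroup G) [L.Normal] (hC : centralizer (L : Set G) ≤ L) (e : L ≃* P) (q : G ⧸ L ≃* Perm (Fin 3))
    (L' : Subgroup G') [L'.Normal] (hC' : centralizer (L' : Set G') ≤ L') (e' : L' ≃* P)
    (q' : G' ⧸ L' ≃* Perm (Fin 3)) : Nonempty (G ≃* G') := by
  obtain ⟨c, i, h1, h2, h3, -⟩ := h.exists_emb L hC e q
  obtain ⟨c', j, h1', h2', h3', -⟩ := h.exists_emb L' hC' e' q'
  have key : ∀ i j : Fin 4, ∃ p q : Perm (Fin 4), p i = i ∧ q j = j ∧ (p * q) i = j := by decide +kernel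
  obtain ⟨p, q, hp, hq, hpq⟩ := key i j
  obtain ⟨g, rfl⟩ := h3 p hp
  obtain ⟨g', rfl⟩ := h3' q hq
  rw [← map_mul] at hpq
  generalize c g * c' g' = k at hpq
  have : c.range.map (MulAut.conj k).toMonoidHom = c'.range := by
    ext α
    rw [h2', mem_map_equiv, h2, ← hpq]
    simp [Equiv.symm_apply_eq]
  exact ⟨(MonoidHom.ofInjective h1).trans <| (((MulAut.conj k).subgroupMap _).trans (MulEquiv.subgroupCongr this)).trans
    (MonoidHom.ofInjective h1').symm⟩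

theorem Pkg.seven {r : Fin 13 → P} {φ : MulAut P →* Perm (Fin 4)} (h : Pkg P r φ) (L : Subgroup G) [L.Normal]
    (hC : centralizer (L : Set G) ≤ L) (e : L ≃* P) (q : G ⧸ L ≃* Perm (Fin 3)) :
    ∃ Y : Fin 7 → Subgroup G, (∀ i, Y i ≤ L ∧ Nat.card (Y i) = 3) ∧
      (∀ i j, (∃ g : G, (Y i).map (MulAut.conj g).toMonoidHom = Y j) → i = j) ∧
      ∀ X : Subgroup G, X ≤ L → Nat.card X = 3 → ∃ i, ∃ g : G, X.map (MulAut.conj g).toMonoidHom = Y i := by
  obtain ⟨c, i, -, h2, h3, h4⟩ := h.exists_emb L hC e q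
  have key : ∀ i : Fin 4, ∃ rep : Fin 7 → Fin 13, (∀ a, ∃ j, ∃ p : Perm (Fin 4), p i = i ∧ act p a = rep j) ∧
      ∀ j k, ∀ p : Perm (Fin 4), p i = i → act p (rep j) = rep k → j = k := fun i =>
    ⟨![![0, 1, 4, 7, 10, 11, 12], ![1, 0, 4, 5, 10, 11, 12], ![2, 0, 5, 4, 10, 11, 12], ![3, 0, 6, 4, 10, 11, 12]] i,
      by revert i; decide +kernel⟩
  obtain ⟨rep, k1, k2⟩ := key i
  let f : P →* G := L.subtype.comp e.symm.toMonoidHom
  have hf : Function.Injective f := L.subtype_injective.comp e.symm.injective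
  have h5 : ∀ g x, f (c g x) = g * f x * g⁻¹ := fun g x => by simpa [f] using h4 g (e.symm x)
  refine sub_classes L (fun j => f (r (rep j))) (fun j => (e.symm _).2) (fun j => by rw [← map_pow, h.cube, map_one])
    (fun j => by rw [Ne, map_eq_one_iff f hf]; exact h.ne _) (fun j => map_inv f _ ▸ f.map_isConj (h.inv _))
    (fun x hx h3' h1 => ?_) fun j k hc => ?_
  · have e1 : f (e ⟨x, hx⟩) = x := by simp [f]
    obtain ⟨a, ha⟩ := h.ex (e ⟨x, hx⟩) (hf (by rw [map_pow, e1, h3', map_one])) fun e2 => h1 (by rw [← e1, e2, map_one])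
    obtain ⟨j, p, hp, e2⟩ := k1 a
    obtain ⟨g, rfl⟩ := h3 p hp
    have := f.map_isConj (h.spec (c g) a)
    rw [e2, h5] at this
    exact ⟨j, (e1 ▸ f.map_isConj ha).trans ((isConj_iff.2 ⟨g, rfl⟩).trans this)⟩
  · obtain ⟨g, hg⟩ := isConj_iff.1 hc
    have := h.spec (c g) (rep j)
    rw [hf ((h5 g _).trans hg)] at this
    exact k2 j k _ ((h2 _).1 ⟨g, rfl⟩) (h.inj _ _ this).symm

theorem Pkg.thirteen {r : Fin 13 → P} {φ : MulAut P →* Perm (Fin 4)} (h : Pkg P r φ) :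
    ∃ Y : Fin 13 → Subgroup P, (∀ i, Nat.card (Y i) = 3) ∧
      (∀ i j, (∃ g : P, (Y i).map (MulAut.conj g).toMonoidHom = Y j) → i = j) ∧
      ∀ X : Subgroup P, Nat.card X = 3 → ∃ i, ∃ g : P, X.map (MulAut.conj g).toMonoidHom = Y i := by
  obtain ⟨Y, h1, h2, h3⟩ := sub_classes ⊤ r (fun _ => trivial) h.cube h.ne h.inv (fun x _ => h.ex x) h.inj
  exact ⟨Y, fun i => (h1 i).2, h2, fun X => h3 X le_top⟩

end Cfsg.Agent.O8
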