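/-
The seven classes of subgroups of order three of `Ω₇(3)`.
-/
import Cfsg.Agent.O8.Ext
import Cfsg.Agent.Cl.OStd
import Cfsg.Agent.Cl.Congr

set_option autoImplicit false

namespace Cfsg.Agent.O8

open Cfsg.Agent.M24 Cfsg.Agent.Cl.Orth Subgroup
open Cfsg.Agent.Chev (dgt)

section

variable {F : Type*} [Field F] {V : Type*} [AddCommGroup V] [Module F V] {Q : QuadraticForm F V}
  {W : Type*} [AddCommGroup W] [Module F W] {Q' : QuadraticForm F W}

variable (Q Q') in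
/-- `Q` is the orthogonal sum of a line and of `Q'` -/
structure Sp1 (w : V) (i : W →ₗ[F] V) (j : V →ₗ[F] W) : Prop where
  ji : ∀ x, j (i x) = x
  dec : ∀ v, v = B Q w v • w + i (j v)
  Qi : ∀ x, Q (i x) = Q' x
  wi : ∀ x, B Q w (i x) = 0
  jw : j w = 0
  ww : B Q w w = 1

variable {w : V} {i : W →ₗ[F] V} {j : V →ₗ[F] W}

/-- extension by the identity, as a linear map -/
def Sp1.extL (_ : Sp1 Q Q' w i j) (g : W →ₗ[F] W) : V →ₗ[F] V := (B Q w).smulRight w + i ∘ₗ g ∘ₗ j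

theorem Sp1.extL_apply (h : Sp1 Q Q' w i j) (g : W →ₗ[F] W) (v : V) : h.extL g v = B Q w v • w + i (g (j v)) := rfl

/-- extension by the identity -/
def Sp1.ext (h : Sp1 Q Q' w i j) : OG Q' →* OG Q :=
  MonoidHom.mk' (fun g => OG.mk' (h.extL g.1.toLinearMap) (h.extL (g⁻¹).1.toLinearMap)
    (fun v => by simpa [h.extL_apply, h.ww, h.wi, h.jw, h.ji] using (h.dec v).symm)
    (fun v => by simpa [h.extL_apply, h.ww, h.wi, h.jw, h.ji] using (h.dec v).symm)
    (fun v => by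
      conv_rhs => rw [h.dec v]
      simp [h.extL_apply, Q_add, h.wi, h.Qi, OG.Q_apply]))
    fun a b => OG.ext' fun v => by simp [h.extL_apply, h.ww, h.wi, h.jw, h.ji]

theorem Sp1.ext_apply (h : Sp1 Q Q' w i j) (g : OG Q') (v : V) : (h.ext g).1 v = B Q w v • w + i (g.1 (j v)) := rfl

theorem Sp1.ext_w (h : Sp1 Q Q' w i j) (g : OG Q') : (h.ext g).1 w = w := by simp [h.ext_apply, h.ww, h.jw]

theorem Sp1.ext_injective (h : Sp1 Q Q' w i j) : Function.Injective h.ext := fun a b e => OG.ext' fun x => by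
  have := congrArg (fun g : OG Q => j (g.1 (i x))) e
  simpa [h.ext_apply, h.wi, h.ji] using this

theorem Sp1.ext_Ei (h : Sp1 Q Q' w i j) (u v : W) : h.ext (Ei Q' u v) = Ei Q (i u) (i v) := by
  have hB := B_congr i h.Qi
  by_cases H : Q' u = 0 ∧ B Q' u v = 0
  · rw [Ei_eq H.1 H.2, Ei_eq ((h.Qi u).trans H.1) ((hB u v).trans H.2)]
    refine OG.ext' fun x => ?_
    have : ∀ y, B Q x (i y) = B Q' (j x) y := fun y => by
      conv_lhs => rw [h.dec x]
      simp [h.wi, hB]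
    rw [h.ext_apply, eich_apply, eich_apply, this, this, h.Qi]
    conv_rhs => rw [h.dec x]
    simp only [map_add, map_sub, map_smul, h.jw, h.ji, smul_zero, zero_add]
    abel
  · rw [Ei, dif_neg H, Ei, dif_neg (by rwa [h.Qi, hB]), map_one]

theorem Sp1.ext_mem (h : Sp1 Q Q' w i j) {g : OG Q'} (hg : g ∈ EG Q') : h.ext g ∈ EG Q := by
  refine (closure_le (K := (EG Q).comap h.ext)).2 ?_ hg
  rintro _ ⟨u, v, hu, hv, rfl⟩
  rw [SetLike.mem_coe, mem_comap, ← Ei_eq, h.ext_Ei]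
  exact Ei_mem_EG _ _

theorem Sp1.Ei_mem (h : Sp1 Q Q' w i j) {u v : V} (hu : B Q w u = 0) (hv : B Q w v = 0) :
    Ei Q u v ∈ (h.ext.comp (EG Q').subtype).range :=
  ⟨⟨_, Ei_mem_EG (j u) (j v)⟩, (h.ext_Ei _ _).trans (by
    conv_rhs => rw [h.dec u, h.dec v, hu, hv, zero_smul, zero_add, zero_add])⟩

end

/-- the seven-dimensional form -/
abbrev Q7 := HS 3 (Q1 (ZMod 3))

/-- the embedding of the seven-space -/
def i7 : HV (ZMod 3) 3 (ZMod 3) →ₗ[ZMod 3] (I8 → ZMod 3) where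
  toFun v := Sum.elim ![v.1 0, v.1 1, v.1 2, v.2.2] ![v.2.1 0, v.2.1 1, v.2.1 2, v.2.2]
  map_add' x y := by ext (a | a) <;> fin_cases a <;> rfl
  map_smul' c x := by ext (a | a) <;> fin_cases a <;> rfl

/-- the projection onto the seven-space -/
def j7 : (I8 → ZMod 3) →ₗ[ZMod 3] HV (ZMod 3) 3 (ZMod 3) where
  toFun v := (fun a => v (.inl a.castSucc), fun a => v (.inr a.castSucc), -(v (.inl 3) + v (.inr 3)))
  map_add' x y := Prod.ext rfl (Prod.ext rfl (by simp; ring))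
  map_smul' c x := Prod.ext rfl (Prod.ext rfl (by simp; ring))

theorem sp7 : Sp1 Q8 Q7 (vec 4401) i7 j7 := by
  have hw : ∀ x, B Q8 (vec 4401) x = x (.inr 3) - x (.inl 3) := fun x => by
    rw [vec_w0, map_sub, LinearMap.sub_apply, B_vec_pow, B_vec_pow]; rfl
  have h3 : ∀ a : ZMod 3, -(a + a) = a := by decide
  have h4 : ∀ a b : ZMod 3, a = (b - a) * 1 + -(a + b) ∧ b = (b - a) * 2 + -(a + b) := by decide
  refine ⟨fun x => Prod.ext (funext fun a => by fin_cases a <;> rfl) (Prod.ext (funext fun a => by fin_cases a <;> rfl)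
    (h3 _)), fun v => ?_, fun x => ?_, fun x => by rw [hw]; exact sub_self _, by decide +kernel, by rw [hw]; decide +kernel⟩
  · rw [hw]
    ext (a | a) <;> fin_cases a
    exacts [(zero_add _).symm.trans (congrArg (· + _) (mul_zero _).symm),
      (zero_add _).symm.trans (congrArg (· + _) (mul_zero _).symm),
      (zero_add _).symm.trans (congrArg (· + _) (mul_zero _).symm), (h4 _ _).1,
      (zero_add _).symm.trans (congrArg (· + _) (mul_zero _).symm),
      (zero_add _).symm.trans (congrArg (· + _) (mul_zero _).symm),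
      (zero_add _).symm.trans (congrArg (· + _) (mul_zero _).symm), (h4 _ _).2]
  · simp [Q8_apply, HS_apply, Q1_apply, Fin.sum_univ_four, Fin.sum_univ_three, dotProduct, i7]

theorem seven_EG : ∃ r : Fin 7 → EG Q7, (∀ i, r i ^ 3 = 1) ∧ (∀ i, r i ≠ 1) ∧ (∀ i, IsConj (r i)⁻¹ (r i)) ∧
    (∀ x, x ^ 3 = 1 → x ≠ 1 → ∃ i, IsConj x (r i)) ∧ ∀ i j, IsConj (r i) (r j) → i = j := by
  let f := sp7.ext.comp (EG Q7).subtype
  have hf : Function.Injective f := sp7.ext_injective.comp Subtype.val_injective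
  have hK : ∀ u ∈ Pp Q8 (Sv [4401]), ∀ v ∈ Pp Q8 (Sv [4401]), Ei Q8 u v ∈ f.range := fun u hu v hv =>
    sp7.Ei_mem (mem_Pp_Sv.1 hu _ (by simp)) (mem_Pp_Sv.1 hv _ (by simp))
  have hT : ∀ i < 64, WOK f.range (dgt 1024 tcB0 i) := fun i hi => (chkT_sound chkTB0 hK i hi).mono inf_le_left
  have key : ∀ i < 7, wd tcB0 (lget bW 0 i) = lget lB0 0 (i + 1) ∧ lget lB0 0 (i + 1) ≠ ONE ∧
      mul3 (lget lB0 0 (i + 1)) (mul3 (lget lB0 0 (i + 1)) (lget lB0 0 (i + 1))) = ONE ∧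
      mul3 (wd tcB0 (lget bI 0 i)) (mul3 (lget lB0 0 (i + 1)) (lget lB0 0 (i + 1))) =
        mul3 (lget lB0 0 (i + 1)) (wd tcB0 (lget bI 0 i)) ∧ lget bP 0 i < 13 ∧
      cjc tcD0 (lget lB0 0 (i + 1)) (lget lD0 0 (lget bP 0 i + 1)) (lget bD 0 i) = true := by decide +kernel
  have : ∀ i : Fin 7, ∃ x, cd (f x) = lget lB0 0 (i + 1) := fun i => by
    obtain ⟨_, ⟨x, rfl⟩, e⟩ := wd_ok hT (lget bW 0 i)
    exact ⟨x, e.trans (key i i.2).1⟩
  choose r hr using this
  have h3 : ∀ i, r i ^ 3 = 1 := fun i => hf <| cd_injective <| by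
    rw [pow_three, map_mul, map_mul, cd_mul, cd_mul, hr, (key i i.2).2.2.1, map_one, cd_one]
  refine ⟨r, h3, fun i h => (key i i.2).2.1 (by rw [← hr, h, map_one, cd_one]), fun i => ?_, fun x hx h1 => ?_,
    fun i j h => ?_⟩
  · obtain ⟨_, ⟨k, rfl⟩, e⟩ := wd_ok hT (lget bI 0 i)
    have := (key i i.2).2.2.2.1
    rw [← e, ← hr, ← cd_mul, ← cd_mul, ← cd_mul, ← map_mul, ← map_mul, ← map_mul] at this
    rw [show (r i)⁻¹ = r i * r i by rw [inv_eq_iff_mul_eq_one, ← pow_three, h3]]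
    exact isConj_iff.2 ⟨k, mul_inv_eq_iff_eq_mul.2 (hf (cd_injective this))⟩
  · obtain ⟨_, ⟨⟨k, rfl⟩, -⟩, e⟩ := cls7 hK (f x) (by rintro _ (rfl | h); exacts [sp7.ext_w _, h.elim])
      (by rw [← map_pow, hx, map_one])
    have : ∀ X ∈ lB0, X = ONE ∨ ∃ i : Fin 7, X = lget lB0 0 (i + 1) := by decide +kernel
    rw [← map_inv, ← map_mul, ← map_mul] at e
    rcases this _ e with e | ⟨i, e⟩
    · rw [← cd_one, ← map_one f] at e
      exact absurd (by simpa using hf (cd_injective e)) h1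
    · exact ⟨i, isConj_iff.2 ⟨k, hf (cd_injective (e.trans (hr i).symm))⟩⟩
  · let f8 : EG Q7 →* EG Q8 := f.codRestrict _ fun x => sp7.ext_mem x.2
    have h8 : ∀ i : Fin 7, IsConj (adL (f8 (r i))) (rx (lget bP 0 i)) := fun i => by
      rw [← adL_ry]
      refine adL.map_isConj (isConj_of_cjc (c := lget bD 0 i) ?_)
      rw [cd_ry (key i i.2).2.2.2.2.1, ← (key i i.2).2.2.2.2.2, ← hr]; rfl
    have := rx_inj (key i i.2).2.2.2.2.1 (key j j.2).2.2.2.2.1
      ((h8 i).symm.trans ((adL.map_isConj (f8.map_isConj h)).trans (h8 j)))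
    revert this; generalize i = a; generalize j = b; revert a b; decide +kernel

theorem seven_classes {P : Type*} [Group P] (e : P ≃* EG Q7) :
    ∃ Y : Fin 7 → Subgroup P, (∀ i, Nat.card (Y i) = 3) ∧
      (∀ i j, (∃ g : P, (Y i).map (MulAut.conj g).toMonoidHom = Y j) → i = j) ∧
      ∀ X : Subgroup P, Nat.card X = 3 → ∃ i, ∃ g : P, X.map (MulAut.conj g).toMonoidHom = Y i := by
  obtain ⟨r, h1, h2, h3, h4, h5⟩ := seven_EG
  obtain ⟨Y, k1, k2, k3⟩ := sub_classes ⊤ (fun i => e.symm (r i)) (fun _ => trivial)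
    (fun i => by rw [← map_pow, h1, map_one]) (fun i => by simpa using h2 i)
    (fun i => by simpa using e.symm.toMonoidHom.map_isConj (h3 i))
    (fun x _ a b => by
      obtain ⟨i, hi⟩ := h4 (e x) (by rw [← map_pow, a, map_one]) (by simpa using b)
      exact ⟨i, by simpa using e.symm.toMonoidHom.map_isConj hi⟩)
    fun i j h => h5 i j (by simpa using e.toMonoidHom.map_isConj h)
  exact ⟨Y, fun i => (k1 i).2, k2, fun X => k3 X le_top⟩

theorem pomega7 : Nonempty (POmega (ZMod 3) (quadFormOdd 3 (ZMod 3)) ≃* EG Q7) := by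
  have hB := bnondeg_Q1 (F := ZMod 3) (by decide)
  have : negO Q7 ∉ EG Q7 := by
    rw [negO_mem_HS hB (by decide) (by decide) (by simp) (fun _ : Unit => 1) (by simp) (by simp [Q1_apply])
      (by simp)]
    simp
  exact ⟨(pomegaEquiv (oOdd 3 _) (commutator_HS hB (by decide) (by simp))).trans (Cl.quotCenterEquivOfBot
    (eq_bot_of_card_eq _ ((hyp_HS 0).card_center_eq_one (bnondeg_HS hB) (by simp [finrank_HV]) (.inl this))))⟩

end Cfsg.Agent.O8
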